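import Mathlib
import Cfsg.Agent.H7.Sect

/-! Brauer lifting for linear representations over finite fields. -/

set_option autoImplicit false
set_option linter.unusedSectionVars false
set_option linter.unusedVariables false

namespace Cfsg.Agent.H29.Cu

open Cfsg Cfsg.Agent.H6 Module Polynomial
open scoped ComplexConjugate TensorProduct

universe u

theorem pow_expand (Q k : ℕ) : ∃ c : ℕ, (Q + 1) ^ k = 1 + Q * (k + Q * c) := by
  induction k with
  | zero => exact ⟨0, by simp⟩
  | succ k ih =>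
    obtain ⟨c, hc⟩ := ih
    exact ⟨k + (Q + 1) * c, by rw [pow_succ, hc]; ring⟩

theorem exists_weights (Q N : ℕ) (hQ : 1 < Q) :
    ∃ w : Fin (N + 1) → ℚ, ∀ j : ℕ, j ≤ N → ∑ s, w s * ((Q : ℚ) ^ j) ^ (s : ℕ) = j := by
  let x : Fin (N + 1) → ℚ := fun s => (Q : ℚ) ^ (s : ℕ)
  have hx : Function.Injective x := fun a b h =>
    Fin.ext (Nat.pow_right_injective hQ (by simp only [x] at h; exact_mod_cast h : Q ^ (a : ℕ) = Q ^ (b : ℕ)))
  have hu : IsUnit (Matrix.vandermonde x) :=
    (Matrix.isUnit_iff_isUnit_det _).2 (Ne.isUnit (Matrix.det_vandermonde_ne_zero_iff.2 hx))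
  obtain ⟨w, hw⟩ := Matrix.vecMul_surjective_iff_isUnit.2 hu fun j => (j : ℕ)
  refine ⟨w, fun j hj => ?_⟩
  have := congrFun hw ⟨j, Nat.lt_succ_of_le hj⟩
  simp only [Matrix.vecMul, dotProduct, Matrix.vandermonde_apply, x] at this
  rw [← this]
  exact Finset.sum_congr rfl fun s _ => by rw [← pow_mul, ← pow_mul, mul_comm j]

section
variable {K V : Type*} [Field K] [Fintype K] [DecidableEq K] [AddCommGroup V] [Module K V] [FiniteDimensional K V]
  {B : Type u} [Group B] [Finite B]

theorem lift0 (ρ : B →* End K V) (θ : Kˣ →* ℂˣ) (hB : Nat.card B ∣ Nat.card Kˣ)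
    (hc : IsClassFunction B fun b => ∑ t : Kˣ, (θ t : ℂ) * finrank K ((ρ b).eigenspace t)) :
    IsGeneralizedCharacter B fun b => ∑ t : Kˣ, (θ t : ℂ) * finrank K ((ρ b).eigenspace t) := by
  classical
  have := Fintype.ofFinite B
  have : Finite V := Module.finite_of_finite K
  refine isGen_of_classInner_int hc fun χ hχ => ?_
  set Q := Nat.card Kˣ with hQ
  have hQ0 : 0 < Q := Nat.card_pos
  have hK : Nat.card K = Q + 1 := by rw [hQ, Nat.card_units]; have := Nat.card_pos (α := K); omega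
  let k : B → Kˣ → ℕ := fun b t => finrank K ((ρ b).eigenspace t)
  let _ : MulAction (B × Kˣ) V :=
    { smul := fun x v => ((x.2⁻¹ : Kˣ) : K) • ρ x.1 v
      one_smul := fun v => by change (((1 : Kˣ)⁻¹ : Kˣ) : K) • ρ 1 v = v; simp
      mul_smul := fun x y v => by
        change (((x.2 * y.2)⁻¹ : Kˣ) : K) • ρ (x.1 * y.1) v = ((x.2⁻¹ : Kˣ) : K) • ρ x.1 (((y.2⁻¹ : Kˣ) : K) • ρ y.1 v)
        simp [smul_smul, mul_comm] }
  have hfix : ∀ x : B × Kˣ, Nat.card (MulAction.fixedBy V x) = (Q + 1) ^ k x.1 x.2 := fun x => by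
    rw [← hK, ← Module.natCard_eq_pow_finrank]
    refine Nat.card_congr (Equiv.setCongr (Set.ext fun v => ?_))
    change ((x.2⁻¹ : Kˣ) : K) • ρ x.1 v = v ↔ v ∈ (ρ x.1).eigenspace x.2
    rw [End.mem_eigenspace_iff, ← Units.smul_def, ← Units.smul_def, inv_smul_eq_iff]
  let S : (ℕ → ℂ) → ℂ := fun f => ∑ b, ∑ t : Kˣ, f (k b t) * θ t * conj (χ b)
  have hB0 : (Nat.card B : ℂ) ≠ 0 := Nat.cast_ne_zero.2 Nat.card_pos.ne'
  have hQ0' : (Q : ℂ) ≠ 0 := Nat.cast_ne_zero.2 hQ0.ne'
  have hz : ∀ s : ℕ, ∃ z : ℤ, S (fun j => (((Q + 1 : ℕ) : ℂ) ^ j) ^ s) = Nat.card B * Q * z := fun s => by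
    obtain ⟨z, hz⟩ := classInner_int (isGen_mul (isGen_pow (isGen_of_isCharacter (isCharacter_perm (G := B × Kˣ) V)) s)
      (isGen_of_isCharacter (isCharacter_linear (θ.comp (MonoidHom.snd B Kˣ)))))
      (isGen_comp (MonoidHom.fst B Kˣ) (isGen_of_irr hχ))
    refine ⟨z, ?_⟩
    rw [← hz, classInner, Nat.card_prod, Nat.cast_mul, mul_inv_cancel_left₀ (mul_ne_zero hB0 hQ0'),
      Fintype.sum_prod_type]
    simp [S, hfix]
  have ha : classInner (fun b => ∑ t : Kˣ, (θ t : ℂ) * finrank K ((ρ b).eigenspace t)) χ =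
      (Nat.card B : ℂ)⁻¹ * S fun j => j := by
    simp only [classInner, S, Finset.sum_mul, k]
    congr 1
    exact Finset.sum_congr rfl fun b _ => Finset.sum_congr rfl fun t _ => by ring
  choose z hz using hz
  obtain ⟨w, hw⟩ := exists_weights (Q + 1) (finrank K V) (by omega)
  have h1 : S (fun j => j) = ∑ s, (w s : ℂ) * S fun j => (((Q + 1 : ℕ) : ℂ) ^ j) ^ (s : ℕ) := by
    simp only [S, Finset.mul_sum]
    refine Eq.trans (Finset.sum_congr rfl fun b _ => ?_) Finset.sum_comm
    refine Eq.trans (Finset.sum_congr rfl fun t _ => ?_) Finset.sum_comm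
    have := congrArg (Rat.cast : ℚ → ℂ) (hw (k b t) (Submodule.finrank_le _))
    push_cast at this ⊢
    rw [← this, Finset.sum_mul, Finset.sum_mul]
    exact Finset.sum_congr rfl fun s _ => by ring
  choose c hcc using pow_expand Q
  obtain ⟨m, hm⟩ := hB
  have h2 : (Nat.card B : ℂ)⁻¹ * S (fun j => j) = z 1 - z 0 - m * S fun j => c j := by
    have e : S (fun j => (((Q + 1 : ℕ) : ℂ) ^ j) ^ 1) = S (fun j => (((Q + 1 : ℕ) : ℂ) ^ j) ^ 0) +
        Q * (S (fun j => j) + Q * S fun j => c j) := by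
      simp only [S, Finset.mul_sum, ← Finset.sum_add_distrib]
      refine Finset.sum_congr rfl fun b _ => Finset.sum_congr rfl fun t _ => ?_
      rw [← Nat.cast_pow, hcc]; push_cast; ring
    rw [hz, hz] at e
    have e2 : (Q : ℂ) = Nat.card B * m := by exact_mod_cast hm
    field_simp
    refine mul_left_cancel₀ hQ0' ?_
    linear_combination -e - Q * S (fun j => c j) * e2
  rw [ha]
  refine exists_int_of_isIntegral_of_rat ?_ (q := ∑ s, w s * (Q * z s)) ?_
  · rw [h2]
    refine ((isIntegral_algebraMap (x := z 1)).sub (isIntegral_algebraMap (x := z 0))).sub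
      ((isIntegral_algebraMap (x := (m : ℤ))).mul (IsIntegral.sum _ fun b _ => IsIntegral.sum _ fun t _ =>
        (((isIntegral_algebraMap (x := (c (k b t) : ℤ))).mul ?_).mul ?_)))
    · exact isGen_isIntegral (isGen_of_isCharacter (isCharacter_linear θ)) t
    · exact isGen_isIntegral (isGen_conj (isGen_of_irr hχ)) b
  · rw [h1, Finset.mul_sum]
    push_cast
    refine Finset.sum_congr rfl fun s _ => ?_
    have := hz s
    push_cast at this
    rw [this]; field_simp

theorem mge_pow {p : ℕ} [Fact p.Prime] [CharP K p] {f g : End K V} (hc : Commute f g) (e : ℕ)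
    (h : f ^ p ^ e = g ^ p ^ e) (t : K) : f.maxGenEigenspace t ≤ g.maxGenEigenspace t := fun v hv => by
  cases subsingleton_or_nontrivial V with
  | inl h => rw [Subsingleton.elim v 0]; exact zero_mem _
  | inr h' =>
  have : CharP (End K V) p := charP_of_injective_algebraMap (algebraMap K (End K V)).injective p
  rw [End.mem_maxGenEigenspace] at hv ⊢
  obtain ⟨k, hk⟩ := hv
  have key : ∀ f : End K V, (f - t • (1 : End K V)) ^ p ^ e = f ^ p ^ e - (t • (1 : End K V)) ^ p ^ e := fun f =>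
    sub_pow_char_pow_of_commute _ _ ((Commute.one_right f).smul_right t)
  refine ⟨p ^ e * k, ?_⟩
  rw [pow_mul, key, ← h, ← key, ← pow_mul, mul_comm, pow_mul]
  obtain ⟨j, hj⟩ : ∃ j, p ^ e = j + 1 := ⟨p ^ e - 1, by have := pow_pos (Fact.out : p.Prime).pos e; omega⟩
  rw [hj, pow_succ, End.mul_apply, hk, map_zero]

end

variable {F K : Type*} [Field F] [Field K] [Algebra F K] [Fintype K] [DecidableEq K]

/-- the Brauer lift of a polynomial -/
noncomputable def bl (θ : Kˣ →* ℂˣ) (h : F[X]) : ℂ :=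
  ∑ t : Kˣ, (θ t : ℂ) * (h.map (algebraMap F K)).rootMultiplicity (t : K)

theorem bl_mul (θ : Kˣ →* ℂˣ) {h k : F[X]} (hh : h ≠ 0) (hk : k ≠ 0) : bl θ (h * k) = bl θ h + bl θ k := by
  simp only [bl, ← Finset.sum_add_distrib, Polynomial.map_mul]
  refine Finset.sum_congr rfl fun t _ => ?_
  rw [rootMultiplicity_mul (mul_ne_zero (map_ne_zero hh) (map_ne_zero hk))]
  push_cast; ring

theorem lift {V : Type*} [AddCommGroup V] [Module F V] [FiniteDimensional F V] {G : Type u} [Group G] [Finite G]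
    {p : ℕ} [hp : Fact p.Prime] [CharP K p] (ρ : G →* End F V) (θ : Kˣ →* ℂˣ) {e : ℕ}
    (hG : Nat.card G ∣ p ^ e * Nat.card Kˣ) : IsGeneralizedCharacter G fun g => bl θ (ρ g).charpoly := by
  let σ : G →* End K (K ⊗[F] V) := (End.baseChangeHom F K V).toMonoidHom.comp ρ
  have h1 : ∀ g, bl θ (ρ g).charpoly = ∑ t : Kˣ, (θ t : ℂ) * finrank K ((σ g).maxGenEigenspace t) := fun g => by
    simp only [bl, LinearMap.finrank_maxGenEigenspace_eq, ← LinearMap.charpoly_baseChange]; rfl
  have hcl : IsClassFunction G fun g => bl θ (ρ g).charpoly := fun g h => by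
    let u : V ≃ₗ[F] V := LinearMap.GeneralLinearGroup.toLinearEquiv (ρ.toHomUnits h)
    change bl θ _ = bl θ _
    rw [← u.charpoly_conj (ρ g), map_mul, map_mul]
    congr 2
  have hQ : Nat.card Kˣ + 1 = Nat.card K := by rw [Nat.card_units]; have := Nat.card_pos (α := K); omega
  have hpQ : (p ^ e).Coprime (Nat.card Kˣ) := by
    obtain ⟨n, -, hn⟩ := FiniteField.card K p
    refine Nat.Coprime.pow_left _ ((Nat.Prime.coprime_iff_not_dvd hp.out).2 fun hd => hp.out.one_lt.ne' ?_)
    refine Nat.dvd_one.1 ((Nat.dvd_add_right hd).1 ?_)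
    rw [hQ, Nat.card_eq_fintype_card, hn]
    exact dvd_pow_self p n.ne_zero
  obtain ⟨a, ha, ha'⟩ := H7.exists_piExp hpQ
  have h2 := H7.gen_pow_of_elem hpQ hG ha ha' hcl fun B r _ _ hB => by
    have h3 : ∀ b : B, bl θ (ρ b).charpoly = ∑ t : Kˣ, (θ t : ℂ) * finrank K (((σ.comp B.subtype) b).eigenspace t) :=
      fun b => by
      have hs : (σ b).IsSemisimple := by
        refine End.isSemisimple_of_squarefree_aeval_eq_zero (p := X ^ Nat.card Kˣ - 1)
          (Separable.squarefree (X_pow_sub_one_separable_iff.2 fun e0 => ?_)) ?_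
        · have : ((Nat.card Kˣ + 1 : ℕ) : K) = 0 := by
            rw [hQ, Nat.card_eq_fintype_card]; exact FiniteField.cast_card_eq_zero K
          rw [Nat.cast_succ, e0, zero_add] at this
          exact one_ne_zero this
        · rw [map_sub, map_pow, aeval_X, map_one, ← map_pow, ← Subgroup.coe_pow,
            orderOf_dvd_iff_pow_eq_one.1 ((orderOf_dvd_natCard b).trans hB)]
          simp
      rw [h1]
      refine Finset.sum_congr rfl fun t _ => ?_
      rw [hs.isFinitelySemisimple.maxGenEigenspace_eq_eigenspace]; rfl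
    simp only [h3]
    refine lift0 _ θ hB ?_
    simp only [← h3]
    exact fun g h => hcl g h
  convert h2 using 2 with g
  have h4 : σ (g ^ a) ^ p ^ e = σ g ^ p ^ e := by
    rw [← map_pow, ← map_pow, ← pow_mul]
    congr 1
    refine pow_eq_pow_iff_modEq.2 (Nat.ModEq.of_dvd ((orderOf_dvd_natCard g).trans hG) ?_)
    have := ha'.mul_left' (p ^ e)
    rwa [mul_one, mul_comm (p ^ e) a] at this
  have h5 : Commute (σ (g ^ a)) (σ g) := (Commute.pow_self g a).map σ
  simp only [h1]
  refine Finset.sum_congr rfl fun t _ => ?_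
  rw [(mge_pow h5 e h4 t).antisymm (mge_pow h5.symm e h4.symm t)]

theorem card_fiber {G X : Type*} [Group G] [MulAction G X] (x : X) (a : G) :
    Nat.card {g : G // g • x = a • x} = Nat.card (MulAction.stabilizer G x) :=
  Nat.card_congr ((Equiv.mulLeft a⁻¹).subtypeEquiv fun g => by
    simp [MulAction.mem_stabilizer_iff, mul_smul, inv_smul_eq_iff])

open Classical in
theorem sum_smul {G X : Type*} [Group G] [Fintype G] [MulAction G X] [Fintype X] (x : X) (f : X → ℂ) :
    ∑ a : G, f (a • x) = Nat.card (MulAction.stabilizer G x) * ∑ y with y ∈ MulAction.orbit G x, f y := by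
  rw [← Finset.sum_fiberwise_of_maps_to (t := Finset.univ.filter (· ∈ MulAction.orbit G x)) (g := fun a : G => a • x)
    (fun a _ => by simp), Finset.mul_sum]
  refine Finset.sum_congr rfl fun y hy => ?_
  obtain ⟨a, rfl⟩ := (Finset.mem_filter.1 hy).2
  rw [Finset.sum_congr rfl fun g hg => congrArg f (Finset.mem_filter.1 hg).2, Finset.sum_const, nsmul_eq_mul,
    ← card_fiber x a, Nat.card_eq_fintype_card, Fintype.card_subtype]

theorem gen_orbits {G : Type u} {X : Type*} [Group G] [Finite G] [MulAction G X] [Fintype X] (φ : G → X → ℂ)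
    (h1 : ∀ g h x, φ (h⁻¹ * g * h) x = φ g (h • x)) (h2 : ∀ g x, g • x ≠ x → φ g x = 0)
    (h3 : ∀ x, IsGeneralizedCharacter (MulAction.stabilizer G x) fun s => φ s x) :
    IsGeneralizedCharacter G fun g => ∑ x, φ g x := by
  classical
  have := Fintype.ofFinite G
  have := Fintype.ofFinite (MulAction.orbitRel.Quotient G X)
  have e : (fun g => ∑ x, φ g x) = ∑ ω : MulAction.orbitRel.Quotient G X,
      indFun (MulAction.stabilizer G ω.out) fun s => φ s ω.out := by
    funext g
    rw [Finset.sum_apply, ← Finset.sum_fiberwise Finset.univ (fun x => (Quotient.mk'' x : MulAction.orbitRel.Quotient G X))]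
    refine Finset.sum_congr rfl fun ω _ => ?_
    have e1 : ∀ a, extendByZero (MulAction.stabilizer G ω.out) (fun s => φ s ω.out) a = φ a ω.out := fun a => by
      by_cases ha : a ∈ MulAction.stabilizer G ω.out
      · rw [extendByZero_of_mem _ _ ha]
      · rw [extendByZero_of_not_mem _ _ ha, h2 a _ ha]
    simp only [indFun, e1, h1]
    rw [sum_smul ω.out (φ g), inv_mul_cancel_left₀ (Nat.cast_ne_zero.2 Nat.card_pos.ne')]
    refine Finset.sum_congr (Finset.filter_congr fun x _ => ?_) fun _ _ => rfl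
    rw [← MulAction.orbitRel_apply, ← Quotient.eq'', Quotient.out_eq']
  rw [e]
  exact isGen_sum _ fun ω _ => isGen_indFun _ (h3 _)

end Cfsg.Agent.H29.Cu
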