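import Mathlib
import Cfsg.Agent.H29.Cu1

/-! The cuspidal part of an additive function of the characteristic polynomial. -/

set_option autoImplicit false
set_option linter.unusedSectionVars false
set_option linter.unusedVariables false

namespace Cfsg.Agent.H29.Cu

open Cfsg Cfsg.Agent.H6 Module Polynomial Classical

universe u

variable {F : Type*} [Field F] {V V' : Type*} [AddCommGroup V] [Module F V] [FiniteDimensional F V]
  [AddCommGroup V'] [Module F V'] [FiniteDimensional F V'] {g : End F V} {g' : End F V'} {U W X : Submodule F V}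
  {b : F[X] → ℂ}

open Module.Basis in
theorem charpoly_eq_mul (W : Submodule F V) (e : V →ₗ[F] V) (he : W ≤ W.comap e) :
    e.charpoly = (e.restrict he).charpoly * (W.mapQ W e he).charpoly := by
  let m := Module.Free.ChooseBasisIndex F W
  let bW : Basis m F W := Module.Free.chooseBasis F W
  let n := Module.Free.ChooseBasisIndex F (V ⧸ W)
  let bQ : Basis n F (V ⧸ W) := Module.Free.chooseBasis F (V ⧸ W)
  let b := sumQuot bW bQ
  let A : Matrix m m F := LinearMap.toMatrix bW bW (e.restrict he)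
  let B : Matrix m n F := Matrix.of fun i l ↦
    ((sumQuot bW bQ).repr (e ((sumQuot bW bQ) (Sum.inr l)))) (Sum.inl i)
  let D : Matrix n n F := LinearMap.toMatrix bQ bQ (W.mapQ W e he)
  suffices LinearMap.toMatrix b b e = Matrix.fromBlocks A B 0 D by
    rw [← LinearMap.charpoly_toMatrix e b, this, ← LinearMap.charpoly_toMatrix _ bW,
      ← LinearMap.charpoly_toMatrix _ bQ, Matrix.charpoly_fromBlocks_zero₂₁]
  ext u v
  cases u with
  | inl i =>
    cases v with
    | inl k =>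
      simp only [b, sumQuot_inl, Matrix.fromBlocks_apply₁₁, A, LinearMap.toMatrix_apply]
      apply sumQuot_repr_inl_of_mem
    | inr l => simp [b, LinearMap.toMatrix_apply, Matrix.fromBlocks_apply₁₂, B]
  | inr j =>
    cases v with
    | inl k =>
      suffices W.mkQ (e (bW k)) = 0 by simp [LinearMap.toMatrix_apply, b, this]
      rw [← LinearMap.mem_ker, Submodule.ker_mkQ]
      exact he (Submodule.coe_mem (bW k))
    | inr l =>
      simp only [LinearMap.toMatrix_apply, sumQuot_repr_inr,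
        Matrix.fromBlocks_apply₂₂, b, D]
      rw [← sumQuot_inr bW bQ l, W.mapQ_apply]
      simp

/-- `W` is `g`-stable -/
def St (g : End F V) (W : Submodule F V) : Prop := ∀ w ∈ W, g w ∈ W

/-- the characteristic polynomial of `g` on `W` -/
noncomputable def cp (g : End F V) (W : Submodule F V) : F[X] := if h : St g W then (g.restrict h).charpoly else 1

theorem cp_monic (g : End F V) (W : Submodule F V) : (cp g W).Monic := by
  unfold cp; split_ifs
  · exact LinearMap.charpoly_monic _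
  · exact monic_one

theorem St.map (h : St g W) (φ : V →ₗ[F] V') (hc : ∀ w ∈ W, φ (g w) = g' (φ w)) : St g' (W.map φ) := by
  rintro _ ⟨w, hw, rfl⟩
  exact ⟨g w, h w hw, hc w hw⟩

theorem cp_map (h : St g W) (φ : V →ₗ[F] V') (hi : ∀ w ∈ W, φ w = 0 → w = 0) (hc : ∀ w ∈ W, φ (g w) = g' (φ w)) :
    cp g' (W.map φ) = cp g W := by
  let e : W ≃ₗ[F] W.map φ := LinearEquiv.ofBijective (φ.submoduleMap W) ⟨(injective_iff_map_eq_zero _).2 fun w hw =>
    Subtype.ext (hi w w.2 (congrArg Subtype.val hw)), φ.submoduleMap_surjective W⟩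
  rw [cp, cp, dif_pos h, dif_pos (h.map φ hc), ← e.charpoly_conj]
  congr 1
  ext1 x
  obtain ⟨w, rfl⟩ := e.surjective x
  rw [LinearEquiv.conj_apply_apply, e.symm_apply_apply]
  exact Subtype.ext (hc w w.2).symm

theorem st_top (g : End F V) : St g ⊤ := fun _ _ => trivial
theorem st_bot (g : End F V) : St g ⊥ := fun w hw => by rw [(Submodule.mem_bot F).1 hw, map_zero]; exact zero_mem _
theorem St.inf (h : St g W) (h' : St g U) : St g (W ⊓ U) := fun w hw => ⟨h w hw.1, h' w hw.2⟩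

theorem cp_top (g : End F V) : cp g ⊤ = g.charpoly := by
  rw [cp, dif_pos (st_top g), ← Submodule.topEquiv.charpoly_conj]
  rfl

theorem cp_bot (g : End F V) : cp g ⊥ = 1 := by
  rw [cp, dif_pos (st_bot g)]
  exact (LinearMap.charpoly_monic _).natDegree_eq_zero.1 (by rw [LinearMap.charpoly_natDegree, finrank_bot])

theorem cp_mul (hX : St g X) (hW : St g W) : cp g W = cp g (X ⊓ W) * cp (X.mapQ X g hX) (W.map X.mkQ) := by
  have h1 : St (g.restrict hW) (X.comap W.subtype) := fun w hw => hX w hw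
  rw [cp, dif_pos hW, charpoly_eq_mul _ _ h1]
  congr 1
  · rw [inf_comm, ← Submodule.map_comap_subtype, cp_map h1 W.subtype (fun w _ hw => Subtype.ext hw) fun _ _ => rfl,
      cp, dif_pos h1]
  · let ψ := (X.comap W.subtype).mapQ X W.subtype le_rfl
    have : W.map X.mkQ = (⊤ : Submodule F _).map ψ := by
      refine le_antisymm ?_ ?_
      · rintro _ ⟨w, hw, rfl⟩
        exact ⟨Submodule.Quotient.mk ⟨w, hw⟩, trivial, rfl⟩
      · rintro _ ⟨y, -, rfl⟩
        obtain ⟨w, rfl⟩ := Submodule.Quotient.mk_surjective _ y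
        exact ⟨w, w.2, rfl⟩
    rw [this, ← cp_top]
    refine (cp_map (st_top _) ψ (fun y _ hy => ?_) fun y _ => ?_).symm
    · obtain ⟨w, rfl⟩ := Submodule.Quotient.mk_surjective _ y
      exact (Submodule.Quotient.mk_eq_zero _).2 ((Submodule.Quotient.mk_eq_zero X).1 hy)
    · obtain ⟨w, rfl⟩ := Submodule.Quotient.mk_surjective _ y
      rfl

variable [Fintype (Submodule F V)] [Fintype (Submodule F V')]

/-- the Möbius transform of `W ↦ b (cp g W)` over the stable subspaces -/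
noncomputable def D (b : F[X] → ℂ) (g : End F V) : Submodule F V → ℂ :=
  (wellFounded_lt (α := Submodule F V)).fix fun W rec =>
    if St g W then b (cp g W) - ∑ U : {U // U < W}, rec U.1 U.2 else 0

theorem D_eq (b : F[X] → ℂ) (g : End F V) (W : Submodule F V) :
    D b g W = if St g W then b (cp g W) - ∑ U with U < W, D b g U else 0 := by
  rw [D, WellFounded.fix_eq, Finset.sum_subtype (Finset.univ.filter (· < W)) (p := (· < W)) (by simp)]

theorem D_of_not (h : ¬ St g W) : D b g W = 0 := by rw [D_eq, if_neg h]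
theorem D_of_st (h : St g W) : D b g W = b (cp g W) - ∑ U with U < W, D b g U := by rw [D_eq, if_pos h]

theorem sum_le_eq (W : Submodule F V) (f : Submodule F V → ℂ) : ∑ U with U ≤ W, f U = f W + ∑ U with U < W, f U := by
  rw [← Finset.add_sum_erase _ _ (a := W) (by simp)]
  congr 2
  ext U
  simp [lt_iff_le_and_ne, and_comm]

theorem D_sum (h : St g W) : ∑ U with U ≤ W, D b g U = b (cp g W) := by
  rw [sum_le_eq, D_of_st h, sub_add_cancel]

theorem D_map (h : St g W) (φ : V →ₗ[F] V') (hi : ∀ w ∈ W, φ w = 0 → w = 0) (hc : ∀ w ∈ W, φ (g w) = g' (φ w))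
    (U : Submodule F V) : U ≤ W → D b g' (U.map φ) = D b g U := by
  have h1 : ∀ U ≤ W, W ⊓ (U.map φ).comap φ = U := fun U hU => by
    refine le_antisymm ?_ (le_inf hU (Submodule.le_comap_map _ _))
    rintro w ⟨hw, u, hu, e⟩
    rw [← sub_eq_zero.1 (hi _ (W.sub_mem (hU hu) hw) (by rw [map_sub, e, sub_self]))]
    exact hu
  have h2 : ∀ U' ≤ W.map φ, (W ⊓ U'.comap φ).map φ = U' := fun U' hU => by
    refine le_antisymm (Submodule.map_le_iff_le_comap.2 inf_le_right) fun y hy => ?_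
    obtain ⟨w, hw, rfl⟩ := hU hy
    exact ⟨w, ⟨hw, hy⟩, rfl⟩
  induction U using WellFoundedLT.induction with
  | ind U ih =>
  intro hU
  by_cases hs : St g U
  · rw [D_of_st hs, D_of_st (hs.map φ fun w hw => hc w (hU hw)),
      cp_map hs φ (fun w hw => hi w (hU hw)) fun w hw => hc w (hU hw)]
    congr 1
    refine (Finset.sum_nbij' (fun T => T.map φ) (fun T => W ⊓ T.comap φ) ?_ ?_ ?_ ?_ ?_).symm
    · intro T hT
      have hT := (Finset.mem_filter.1 hT).2
      refine Finset.mem_filter.2 ⟨Finset.mem_univ _, (Submodule.map_mono hT.le).lt_of_ne fun e => hT.ne ?_⟩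
      rw [← h1 T (hT.le.trans hU), e, h1 U hU]
    · intro T hT
      have hT := (Finset.mem_filter.1 hT).2
      refine Finset.mem_filter.2 ⟨Finset.mem_univ _,
        ((inf_le_inf_left W (Submodule.comap_mono hT.le)).trans (h1 U hU).le).lt_of_ne fun e => hT.ne ?_⟩
      rw [← e, h2 T (hT.le.trans (Submodule.map_mono hU))]
    · exact fun T hT => h1 T ((Finset.mem_filter.1 hT).2.le.trans hU)
    · exact fun T hT => h2 T ((Finset.mem_filter.1 hT).2.le.trans (Submodule.map_mono hU))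
    · exact fun T hT => (ih T (Finset.mem_filter.1 hT).2 ((Finset.mem_filter.1 hT).2.le.trans hU)).symm
  · rw [D_of_not hs, D_of_not fun e => hs fun u hu => (h1 U hU).le ⟨h u (hU hu), ?_⟩]
    change φ (g u) ∈ U.map φ
    rw [hc u (hU hu)]
    exact e _ ⟨u, hu, rfl⟩

theorem D_map' (φ : V →ₗ[F] V') (hi : Function.Injective φ) (hc : ∀ w, φ (g w) = g' (φ w)) (U : Submodule F V) :
    D b g' (U.map φ) = D b g U :=
  D_map (st_top g) φ (fun w _ e => hi (by rw [e, map_zero])) (fun w _ => hc w) U le_top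

theorem D_congr {k : End F V} (h : ∀ w ∈ W, g w = k w) : D b k W = D b g W := by
  by_cases hs : St g W
  · simpa using D_map (b := b) hs LinearMap.id (fun _ _ e => e) h W le_rfl
  · rw [D_of_not hs, D_of_not fun e => hs fun w hw => h w hw ▸ e w hw]

theorem D_bot (hb : b 1 = 0) (g : End F V) : D b g ⊥ = 0 := by
  rw [D_of_st (st_bot g), cp_bot, hb]; simp

theorem D_gen (P : ℕ → Prop) (hP : ∀ m n, m ∣ n → P n → P m)
    (hb : ∀ (W : Submodule F V) (G : Type u) [Group G] [Finite G] (ρ : G →* End F W), P (Nat.card G) →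
      IsGeneralizedCharacter G fun g => b (ρ g).charpoly) (W : Submodule F V) :
    ∀ (G : Type u) [Group G] [Finite G] (ρ : G →* End F V), P (Nat.card G) → (∀ g, St (ρ g) W) →
      IsGeneralizedCharacter G fun g => D b (ρ g) W := by
  induction W using WellFoundedLT.induction with
  | ind W ih =>
  intro G _ _ ρ hG hs
  have hi : ∀ g, Function.Injective (ρ g) := fun g => Function.LeftInverse.injective (g := ρ g⁻¹) fun v => by
    rw [← End.mul_apply, ← map_mul, inv_mul_cancel, map_one, End.one_apply]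
  let σ : G →* End F W :=
    { toFun := fun g => (ρ g).restrict (hs g)
      map_one' := by ext; simp
      map_mul' := fun a b => by ext; simp; rfl }
  let _ : MulAction G (Submodule F V) :=
    { smul := fun g U => U.map (ρ g)
      one_smul := fun U => by change U.map (ρ 1) = U; rw [map_one]; exact U.map_id
      mul_smul := fun a b U => by
        change U.map (ρ (a * b)) = (U.map (ρ b)).map (ρ a)
        rw [map_mul, ← Submodule.map_comp]; rfl }
  have hfix : ∀ (g : G) (U : Submodule F V), St (ρ g) U → g • U = U := fun g U h =>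
    Submodule.eq_of_le_of_finrank_eq (Submodule.map_le_iff_le_comap.2 h)
      (U.equivMapOfInjective _ (hi g)).finrank_eq.symm
  have hlt : ∀ (g : G) (U : Submodule F V), g • U < W ↔ U < W := fun g U => by
    conv_lhs => rw [← hfix g W (hs g)]
    exact Submodule.map_lt_map_iff_of_injective (hi g)
  have h1 := gen_orbits (G := G) (fun g U => if U < W then D b (ρ g) U else 0) (fun g h U => by
    simp only [hlt]
    split_ifs
    · refine (D_map' (ρ h) (hi h) (fun w => ?_) U).symm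
      rw [← End.mul_apply, ← End.mul_apply, ← map_mul, ← map_mul, ← mul_assoc, mul_inv_cancel_left]
    · rfl) (fun g U h => by rw [D_of_not fun e => h (hfix g U e), ite_self]) fun U => by
      by_cases hU : U < W
      · simp only [if_pos hU]
        exact ih U hU _ (ρ.comp (MulAction.stabilizer G U).subtype)
          (hP _ _ (Subgroup.card_subgroup_dvd_card _) hG) fun s w hw => (s.2 : U.map _ = U).le ⟨w, hw, rfl⟩
      · simp only [if_neg hU]; exact isGen_zero
  convert isGen_sub (hb W G σ hG) h1 using 2 with g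
  rw [D_of_st (hs g), cp, dif_pos (hs g), Finset.sum_filter]
  rfl

/-- maps `V / X → A` -/
def Un (X A : Submodule F V) : Submodule F (End F V) where
  carrier := {φ | (∀ x ∈ X, φ x = 0) ∧ ∀ v, φ v ∈ A}
  zero_mem' := ⟨fun _ _ => rfl, fun _ => zero_mem _⟩
  add_mem' := fun h k => ⟨fun x hx => by simp [h.1 x hx, k.1 x hx], fun v => add_mem (h.2 v) (k.2 v)⟩
  smul_mem' := fun c φ h => ⟨fun x hx => by simp [h.1 x hx], fun v => A.smul_mem c (h.2 v)⟩

theorem avg {M : Type*} [AddCommGroup M] (S T : Finset M) (hT : T.Nonempty) (h : ∀ x, ∀ y ∈ T, x + y ∈ S ↔ x ∈ S)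
    (f : M → ℂ) (h0 : ∀ x ∈ S, ∑ y ∈ T, f (x + y) = 0) : ∑ x ∈ S, f x = 0 := by
  have e : ∀ y ∈ T, ∑ x ∈ S, f (x + y) = ∑ x ∈ S, f x := fun y hy =>
    Finset.sum_equiv (Equiv.addRight y) (fun x => (h x y hy).symm) fun _ _ => rfl
  have := Finset.sum_eq_zero h0
  rw [Finset.sum_comm, Finset.sum_congr rfl e, Finset.sum_const, nsmul_eq_mul] at this
  exact (mul_eq_zero.1 this).resolve_left (Nat.cast_ne_zero.2 hT.card_pos.ne')

theorem exists_sec (h : X ⊓ U = ⊥) : ∃ r : V →ₗ[F] V, (∀ v, r v ∈ U) ∧ (∀ x ∈ X, r x = 0) ∧ ∀ u ∈ U, r u = u := by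
  obtain ⟨r, hr⟩ := (X.mkQ.comp U.subtype).exists_leftInverse_of_injective (LinearMap.ker_eq_bot'.2 fun u hu =>
    Subtype.ext (h.le ⟨(Submodule.Quotient.mk_eq_zero X).1 hu, u.2⟩))
  refine ⟨U.subtype ∘ₗ r ∘ₗ X.mkQ, fun v => (r _).2, fun x hx => ?_, fun u hu => ?_⟩
  · simp [(Submodule.Quotient.mk_eq_zero X).2 hx]
  · exact congrArg Subtype.val (LinearMap.congr_fun hr ⟨u, hu⟩)

variable [Fintype (End F V)]

theorem cnt {A : Submodule F V} (h : X ⊓ U = ⊥) (η : End F V) (hη : ∀ u ∈ U, η u ∈ A) :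
    (Finset.univ.filter fun φ : End F V => φ ∈ Un X A ∧ ∀ u ∈ U, φ u = η u).card =
      (Finset.univ.filter fun φ : End F V => φ ∈ Un X A ∧ ∀ u ∈ (U.map X.mkQ).comap X.mkQ, φ u = 0).card := by
  obtain ⟨r, h1, h2, h3⟩ := exists_sec h
  have h0 : η ∘ₗ r ∈ Un X A := ⟨fun x hx => by simp [h2 x hx], fun v => hη _ (h1 v)⟩
  refine Finset.card_equiv (Equiv.subRight (η ∘ₗ r)) fun φ => ?_
  simp only [Finset.mem_filter, Finset.mem_univ, true_and, Equiv.subRight_apply, Submodule.comap_map_mkQ]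
  refine ⟨fun ⟨a1, a2⟩ => ⟨sub_mem a1 h0, fun v hv => ?_⟩, fun ⟨a1, a2⟩ => ⟨by simpa using add_mem a1 h0, fun u hu => ?_⟩⟩
  · obtain ⟨x, hx, u, hu, rfl⟩ := Submodule.mem_sup.1 hv
    rw [map_add, (sub_mem a1 h0).1 x hx]
    simp [a2 u hu, h3 u hu]
  · simpa [h3 u hu, sub_eq_zero] using a2 u (Submodule.mem_sup_right hu)

theorem cnt_lift {B : Submodule F (V ⧸ X)} (hB : B ≤ W.map X.mkQ) :
    (Finset.univ.filter fun U : Submodule F V => (U ≤ W ∧ X ⊓ U = ⊥) ∧ U.map X.mkQ = B).card *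
      (Finset.univ.filter fun φ : End F V => φ ∈ Un X (X ⊓ W) ∧ ∀ u ∈ B.comap X.mkQ, φ u = 0).card =
      (Finset.univ.filter fun φ : End F V => φ ∈ Un X (X ⊓ W)).card := by
  obtain ⟨T, t1, t2, t3⟩ : ∃ T : Submodule F V, T ≤ W ∧ X ⊓ T = ⊥ ∧ T.map X.mkQ = B := by
    obtain ⟨T, hT⟩ := (X.comap (W ⊓ B.comap X.mkQ).subtype).exists_isCompl
    refine ⟨T.map (W ⊓ B.comap X.mkQ).subtype, (Submodule.map_subtype_le _ _).trans inf_le_left, ?_, le_antisymm ?_ ?_⟩
    · rw [eq_bot_iff]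
      rintro _ ⟨hx, t, ht, rfl⟩
      rw [(Submodule.mem_bot F).1 (hT.disjoint.le_bot ⟨hx, ht⟩)]
      exact zero_mem _
    · exact Submodule.map_le_iff_le_comap.2 ((Submodule.map_subtype_le _ _).trans inf_le_right)
    · intro y hy
      obtain ⟨w, hw, rfl⟩ := hB hy
      obtain ⟨x, hx, t, ht, e⟩ := Submodule.mem_sup.1 (hT.codisjoint.top_le (Submodule.mem_top (x := ⟨w, hw, hy⟩)))
      refine ⟨t, ⟨t, ht, rfl⟩, ?_⟩
      have e' : (x : V) + t = w := congrArg Subtype.val e
      rw [← e', map_add, show X.mkQ x = 0 from (Submodule.Quotient.mk_eq_zero X).2 hx, zero_add]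
  have hq : ∀ φ ∈ Un X (X ⊓ W), ∀ v, X.mkQ ((1 + φ) v) = X.mkQ v := fun φ hφ v => by
    rw [LinearMap.add_apply, map_add, show X.mkQ (φ v) = 0 from (Submodule.Quotient.mk_eq_zero X).2 (hφ.2 v).1]
    simp
  rw [Finset.card_eq_sum_card_fiberwise (f := fun φ : End F V => T.map (1 + φ))
    (s := Finset.univ.filter fun φ : End F V => φ ∈ Un X (X ⊓ W))
    (t := Finset.univ.filter fun U : Submodule F V => (U ≤ W ∧ X ⊓ U = ⊥) ∧ U.map X.mkQ = B) fun φ hφ => ?_,
    ← smul_eq_mul, ← Finset.sum_const]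
  · refine Finset.sum_congr rfl fun U hU => ?_
    obtain ⟨⟨u1, u2⟩, u3⟩ := (Finset.mem_filter.1 hU).2
    obtain ⟨r, h1, h2, h3⟩ := exists_sec u2
    have h4 : ∀ t ∈ T, r t - t ∈ X := fun t ht => by
      obtain ⟨u, hu, e⟩ := (t3.trans u3.symm).le ⟨t, ht, rfl⟩
      have e1 : u - t ∈ X := (Submodule.Quotient.eq X).1 e
      have e2 := h2 _ e1
      rw [map_sub, h3 u hu, sub_eq_zero] at e2
      rwa [← e2]
    rw [← t3, ← cnt (A := X ⊓ W) t2 (r - 1) fun t ht => ⟨h4 t ht, W.sub_mem (u1 (h1 t)) (t1 ht)⟩, Finset.filter_filter]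
    congr 1
    refine Finset.filter_congr fun φ _ => and_congr_right fun hφ => ⟨fun e => le_antisymm ?_ fun u hu => ?_, fun e t ht => ?_⟩
    · rintro _ ⟨t, ht, rfl⟩
      simpa [e t ht] using h1 t
    · obtain ⟨t, ht, e'⟩ := (u3.trans t3.symm).le ⟨u, hu, rfl⟩
      have e2 := h2 _ ((Submodule.Quotient.eq X).1 e')
      rw [map_sub, h3 u hu, sub_eq_zero] at e2
      exact ⟨t, ht, by simp [e t ht, e2]⟩
    · have e2 := h3 _ (e.le ⟨t, ht, rfl⟩)
      rw [LinearMap.add_apply, map_add, h2 _ (hφ.2 t).1] at e2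
      simp only [End.one_apply, add_zero] at e2
      simp [e2]
  · have hφ := (Finset.mem_filter.1 hφ).2
    refine Finset.mem_filter.2 ⟨Finset.mem_univ _, ⟨?_, ?_⟩, ?_⟩
    · rintro _ ⟨t, ht, rfl⟩
      exact W.add_mem (t1 ht) (hφ.2 t).2
    · rw [eq_bot_iff]
      rintro _ ⟨hx, t, ht, rfl⟩
      have : t ∈ X := (Submodule.Quotient.mk_eq_zero X).1 ((hq φ hφ t).symm.trans ((Submodule.Quotient.mk_eq_zero X).2 hx))
      rw [(Submodule.mem_bot F).1 (t2.le ⟨this, ht⟩)]
      simp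
    · rw [← Submodule.map_comp, ← t3]
      congr 1
      exact LinearMap.ext (hq φ hφ)

theorem cusp (hb : ∀ h k : F[X], h.Monic → k.Monic → b (h * k) = b h + b k) (X W : Submodule F V) :
    ∀ g : End F V, St g X → X ⊓ W ≠ ⊥ → ¬ W ≤ X → ∑ φ with φ ∈ Un X (X ⊓ W), D b (g + φ) W = 0 := by
  have hb1 : b 1 = 0 := by simpa using hb 1 1 monic_one monic_one
  have : Finite (Submodule F (V ⧸ X)) := Finite.of_injective _ (Submodule.comap_injective_of_surjective X.mkQ_surjective)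
  have := Fintype.ofFinite (Submodule F (V ⧸ X))
  induction W using WellFoundedLT.induction with
  | ind W ih =>
  intro g hX h1 h2
  by_cases hW : St g W
  swap
  · refine Finset.sum_eq_zero fun φ hφ => D_of_not fun e => hW fun w hw => ?_
    simpa using W.sub_mem (e w hw) ((Finset.mem_filter.1 hφ).2.2 w).2
  set 𝒰 := Finset.univ.filter fun φ : End F V => φ ∈ Un X (X ⊓ W) with h𝒰
  have m : ∀ φ ∈ 𝒰, φ ∈ Un X (X ⊓ W) := fun φ hφ => (Finset.mem_filter.1 hφ).2
  have sX : ∀ φ ∈ 𝒰, St (g + φ) X := fun φ hφ x hx => by simpa [(m φ hφ).1 x hx] using hX x hx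
  have sW : ∀ φ ∈ 𝒰, St (g + φ) W := fun φ hφ w hw => W.add_mem (hW w hw) ((m φ hφ).2 w).2
  have hq : ∀ φ ∈ 𝒰, ∀ v, X.mkQ ((g + φ) v) = X.mapQ X g hX (X.mkQ v) := fun φ hφ v => by
    rw [LinearMap.add_apply, map_add, show X.mkQ (φ v) = 0 from (Submodule.Quotient.mk_eq_zero X).2 ((m φ hφ).2 v).1,
      add_zero]; rfl
  have hA : ∀ φ ∈ 𝒰, ∀ U ≤ X ⊓ W, D b (g + φ) U = D b g U := fun φ hφ U hU =>
    D_congr fun w hw => by simp [(m φ hφ).1 w (hU hw).1]
  have e1 : ∀ φ ∈ 𝒰, b (cp (g + φ) W) = b (cp g (X ⊓ W)) + b (cp (X.mapQ X g hX) (W.map X.mkQ)) := fun φ hφ => by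
    rw [cp_mul (sX φ hφ) (sW φ hφ), hb _ _ (cp_monic _ _) (cp_monic _ _), ← D_sum (b := b) ((sX φ hφ).inf (sW φ hφ)),
      ← D_sum (b := b) (hX.inf hW), Finset.sum_congr rfl fun U hU => hA φ hφ U (Finset.mem_filter.1 hU).2]
    congr 3
    exact Submodule.linearMap_qext _ (LinearMap.ext (hq φ hφ))
  have e2 : ∀ U < W, ∑ φ ∈ 𝒰, D b (g + φ) U = (if U ≤ X ⊓ W then ∑ φ ∈ 𝒰, D b (g + φ) U else 0) +
      if U ≤ W ∧ X ⊓ U = ⊥ then ∑ φ ∈ 𝒰, D b (g + φ) U else 0 := fun U hU => by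
    by_cases a1 : U ≤ X <;> by_cases a2 : X ⊓ U = ⊥
    · obtain rfl : U = ⊥ := by rwa [inf_eq_right.2 a1] at a2
      simp [D_bot hb1]
    · rw [if_pos (le_inf a1 hU.le), if_neg fun e => a2 e.2, add_zero]
    · rw [if_neg fun e => a1 (e.trans inf_le_left), if_pos ⟨hU.le, a2⟩, zero_add]
    · simp only [a1, a2, le_inf_iff, false_and, and_false, if_false, add_zero]
      refine avg _ (Finset.univ.filter fun φ : End F V => φ ∈ Un X (X ⊓ U)) ⟨0, by simp⟩ (fun φ ψ hψ => ?_) _
        fun φ hφ => ?_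
      · have hψ := (Finset.mem_filter.1 hψ).2
        simp only [h𝒰, Finset.mem_filter, Finset.mem_univ, true_and]
        exact (Un X (X ⊓ W)).add_mem_iff_left ⟨hψ.1, fun v => ⟨(hψ.2 v).1, hU.le (hψ.2 v).2⟩⟩
      · simp only [← add_assoc]
        exact ih U hU _ (sX φ hφ) a2 a1
  have e3 : ∑ U with U < W, (if U ≤ X ⊓ W then ∑ φ ∈ 𝒰, D b (g + φ) U else 0) = 𝒰.card * b (cp g (X ⊓ W)) := by
    rw [← Finset.sum_filter, Finset.filter_filter, ← D_sum (b := b) (hX.inf hW), Finset.mul_sum]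
    refine Finset.sum_congr (Finset.filter_congr fun U _ => ⟨fun h => h.2, fun h =>
      ⟨h.trans_lt (inf_le_right.lt_of_ne fun e => h2 (e.ge.trans inf_le_left)), h⟩⟩) fun U hU => ?_
    rw [Finset.sum_congr rfl fun φ hφ => hA φ hφ U (Finset.mem_filter.1 hU).2, Finset.sum_const, nsmul_eq_mul]
  have e4 : ∑ U with U < W, (if U ≤ W ∧ X ⊓ U = ⊥ then ∑ φ ∈ 𝒰, D b (g + φ) U else 0) =
      𝒰.card * b (cp (X.mapQ X g hX) (W.map X.mkQ)) := by
    rw [← Finset.sum_filter, Finset.filter_filter, ← D_sum (b := b) (hW.map (g' := X.mapQ X g hX) X.mkQ fun _ _ => rfl), Finset.mul_sum,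
      Finset.filter_congr (q := fun U => U ≤ W ∧ X ⊓ U = ⊥) fun U _ => ⟨fun h => h.2, fun h =>
        ⟨h.1.lt_of_ne fun e => h1 (e ▸ h.2), h⟩⟩,
      ← Finset.sum_fiberwise_of_maps_to (g := fun U => U.map X.mkQ) (t := Finset.univ.filter (· ≤ W.map X.mkQ))
        fun U hU => Finset.mem_filter.2 ⟨Finset.mem_univ _, Submodule.map_mono (Finset.mem_filter.1 hU).2.1⟩]
    refine Finset.sum_congr rfl fun B hB => ?_
    rw [h𝒰, ← cnt_lift (Finset.mem_filter.1 hB).2, Finset.filter_filter, Nat.cast_mul, mul_assoc, ← nsmul_eq_mul,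
      ← Finset.sum_const]
    refine Finset.sum_congr rfl fun U hU => ?_
    obtain ⟨⟨u1, u2⟩, rfl⟩ := (Finset.mem_filter.1 hU).2
    have a1 : ∀ φ ∈ 𝒰, D b (g + φ) U = if St (g + φ) U then D b (X.mapQ X g hX) (U.map X.mkQ) else 0 := fun φ hφ => by
      split_ifs with hs
      · exact (D_map hs X.mkQ (fun w hw e => u2.le ⟨(Submodule.Quotient.mk_eq_zero X).1 e, hw⟩)
          (fun w _ => hq φ hφ w) U le_rfl).symm
      · exact D_of_not hs
    rw [← h𝒰, Finset.sum_congr rfl a1, ← Finset.sum_filter, Finset.sum_const, nsmul_eq_mul]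
    by_cases hs : St (X.mapQ X g hX) (U.map X.mkQ)
    swap
    · simp [D_of_not hs]
    obtain ⟨r, r1, r2, r3⟩ := exists_sec u2
    have a2 : ∀ u ∈ U, r (g u) - g u ∈ X := fun u hu => by
      obtain ⟨u', hu', e⟩ := hs _ ⟨u, hu, rfl⟩
      have e1 : u' - g u ∈ X := (Submodule.Quotient.eq X).1 e
      have e2 := r2 _ e1
      rw [map_sub, r3 u' hu', sub_eq_zero] at e2
      rwa [← e2]
    rw [← cnt (A := X ⊓ W) u2 (r ∘ₗ g - g) fun u hu => ⟨a2 u hu, W.sub_mem (u1 (r1 _)) (hW u (u1 hu))⟩, h𝒰, Finset.filter_filter]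
    congr 3
    refine Finset.filter_congr fun φ _ => and_congr_right fun hφ => ⟨fun e u hu => ?_, fun e u hu => ?_⟩
    · have e2 := r3 _ (e u hu)
      rw [LinearMap.add_apply, map_add, r2 _ (hφ.2 u).1, add_zero] at e2
      simp [e2]
    · simpa [e u hu] using r1 (g u)
  rw [Finset.sum_congr rfl fun φ hφ => (D_of_st (sW φ hφ)).trans (by rw [e1 φ hφ]), Finset.sum_sub_distrib,
    Finset.sum_const, Finset.sum_comm, Finset.sum_congr rfl fun U hU => e2 U (Finset.mem_filter.1 hU).2,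
    Finset.sum_add_distrib, e3, e4, nsmul_eq_mul, mul_add, sub_self]

end Cfsg.Agent.H29.Cu
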