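import Mathlib
import Cfsg.Agent.H29.Cu2

/-! Cyclic vectors and the value of the cuspidal function on cyclic endomorphisms. -/

set_option autoImplicit false
set_option linter.unusedSectionVars false
set_option linter.unusedVariables false

namespace Cfsg.Agent.H29.Cu

open Cfsg Cfsg.Agent.H6 Module Polynomial Classical
open scoped ComplexConjugate

variable {F : Type*} [Field F] {V : Type*} [AddCommGroup V] [Module F V] [FiniteDimensional F V]
  {g k : End F V} {U W X : Submodule F V} {b : F[X] → ℂ} {v : V}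

/-- evaluation of a polynomial in `g` at `v` -/
noncomputable def ev (g : End F V) (v : V) : F[X] →ₗ[F] V := LinearMap.applyₗ v ∘ₗ (aeval g).toLinearMap

theorem ev_apply (g : End F V) (v : V) (p : F[X]) : ev g v p = aeval g p v := rfl

theorem ev_mul (g : End F V) (v : V) (p q : F[X]) : ev g v (p * q) = aeval g p (ev g v q) := by
  simp [ev_apply]

theorem ev_X (g : End F V) (v : V) (p : F[X]) : ev g v (Polynomial.X * p) = g (ev g v p) := by
  rw [ev_mul, aeval_X]

theorem ev_one (g : End F V) (v : V) : ev g v 1 = v := by simp [ev_apply]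

theorem ev_eq (π : F[X] →ₗ[F] V) (h : ∀ p, π (Polynomial.X * p) = g (π p)) : ev g (π 1) = π := by
  have key : ∀ n : ℕ, ev g (π 1) (Polynomial.X ^ n) = π (Polynomial.X ^ n) := fun n => by
    induction n with
    | zero => rw [pow_zero, ev_one]
    | succ n ih => rw [pow_succ', ev_X, h, ih]
  refine Polynomial.lhom_ext' fun n => LinearMap.ext_ring ?_
  simpa [monomial_one_right_eq_X_pow] using key n

theorem St.aeval (h : St g U) (p : F[X]) : St (aeval g p) U := fun w hw =>
  p.aeval_apply_smul_mem_of_le_comap hw g h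

theorem st_range (g : End F V) (v : V) : St g (LinearMap.range (ev g v)) := by
  rintro _ ⟨p, rfl⟩
  exact ⟨_, ev_X g v p⟩

theorem ev_congr (h : ∀ w ∈ LinearMap.range (ev g v), g w = k w) : ev k v = ev g v := by
  conv_lhs => rw [← ev_one g v]
  exact ev_eq _ fun p => by rw [ev_X, h _ ⟨p, rfl⟩]

theorem cp_deg (h : St g W) : (cp g W).natDegree = finrank F W := by
  rw [cp, dif_pos h, LinearMap.charpoly_natDegree]

theorem cp_aeval (h : St g W) {w : V} (hw : w ∈ W) : aeval g (cp g W) w = 0 := by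
  have e : W.subtype ∘ₗ ev (g.restrict h) ⟨w, hw⟩ = ev g w := by
    rw [← ev_eq (g := g) (W.subtype ∘ₗ ev (g.restrict h) ⟨w, hw⟩) fun p => by rw [LinearMap.comp_apply, ev_X]; rfl]
    simp [ev_one]
  rw [← ev_apply, ← e, cp, dif_pos h, LinearMap.comp_apply, ev_apply, LinearMap.aeval_self_charpoly]
  simp

theorem cp_range {d : F[X]} (hd : d.Monic) (h : ∀ p, ev g v p = 0 ↔ d ∣ p) : cp g (LinearMap.range (ev g v)) = d := by
  refine eq_of_monic_of_dvd_of_natDegree_le hd (cp_monic _ _) ((h _).1 (cp_aeval (st_range g v) ⟨1, ev_one g v⟩)) ?_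
  have e : LinearMap.ker (ev g v) = (Ideal.span {d}).restrictScalars F := by
    ext p; simp [h, Ideal.mem_span_singleton]
  rw [cp_deg (st_range g v), ← (ev g v).quotKerEquivRange.finrank_eq, e,
    (Submodule.Quotient.restrictScalarsEquiv F (Ideal.span {d})).finrank_eq, finrank_quotient_span_eq_natDegree]

theorem ann (hc : LinearMap.range (ev g v) = ⊤) (p : F[X]) : ev g v p = 0 ↔ g.charpoly ∣ p := by
  let I : Ideal F[X] :=
    { carrier := {p | ev g v p = 0}
      zero_mem' := map_zero _
      add_mem' := fun {a b} ha hb => by change ev g v (a + b) = 0; rw [map_add, ha, hb, add_zero]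
      smul_mem' := fun a b hb => by change ev g v (a * b) = 0; rw [ev_mul, hb, map_zero] }
  obtain ⟨a, ha⟩ := (inferInstance : I.IsPrincipal).principal
  have h1 : ∀ p, ev g v p = 0 ↔ normalize a ∣ p := fun p => by
    rw [normalize_dvd_iff, ← Ideal.mem_span_singleton, ← Ideal.submodule_span_eq, ← ha]; rfl
  have h2 : a ≠ 0 := by
    rintro rfl
    have := (h1 g.charpoly).1 (by rw [ev_apply, LinearMap.aeval_self_charpoly]; rfl)
    rw [normalize_zero, zero_dvd_iff] at this
    exact (LinearMap.charpoly_monic g).ne_zero this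
  rw [← cp_top, ← hc, cp_range (monic_normalize h2) h1, h1]

theorem st_ker (g : End F V) (d : F[X]) : St g (LinearMap.ker (aeval g d : End F V)) := fun w hw => by
  have : aeval g d (g w) = g (aeval g d w) := by
    rw [← ev_apply g w, ← ev_X, mul_comm, ev_mul, ev_apply, aeval_X]
  rw [LinearMap.mem_ker, this, LinearMap.mem_ker.1 hw, map_zero]

theorem cp_ker (hc : LinearMap.range (ev g v) = ⊤) {d : F[X]} (hd : d.Monic) (h : d ∣ g.charpoly) :
    cp g (LinearMap.ker (aeval g d : End F V)) = d := by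
  obtain ⟨e, he⟩ := h
  have he0 : e ≠ 0 := by rintro rfl; exact (LinearMap.charpoly_monic g).ne_zero (by simpa using he)
  have h1 : ∀ p, ev g (ev g v e) p = ev g v (p * e) := fun p => (ev_mul ..).symm
  refine Eq.trans ?_ (cp_range (g := g) (v := ev g v e) hd fun p => by rw [h1, ann hc, he, mul_dvd_mul_iff_right he0])
  congr 1
  ext x
  obtain ⟨p, rfl⟩ := hc.ge (Submodule.mem_top (x := x))
  rw [LinearMap.mem_ker, ← ev_mul, ann hc, he, mul_dvd_mul_iff_left hd.ne_zero]
  refine ⟨fun ⟨r, hr⟩ => ⟨r, by rw [h1, hr, mul_comm]⟩, fun ⟨r, hr⟩ => ?_⟩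
  rw [h1, ← sub_eq_zero, ← map_sub, ann hc, he] at hr
  exact (dvd_sub_right (dvd_mul_left e r)).1 ((dvd_mul_left e d).trans hr)

theorem cp_dvd (hU : St g U) (hW : St g W) (h : U ≤ W) : cp g U ∣ cp g W := by
  rw [cp_mul hU hW, inf_eq_left.2 h]; exact dvd_mul_right _ _

theorem ker_cp (hc : LinearMap.range (ev g v) = ⊤) (hU : St g U) : LinearMap.ker (aeval g (cp g U) : End F V) = U := by
  refine (Submodule.eq_of_le_of_finrank_eq (fun w hw => cp_aeval hU hw) ?_).symm
  rw [← cp_deg hU, ← cp_deg (st_ker g _), cp_ker hc (cp_monic _ _) (cp_top g ▸ cp_dvd hU (st_top g) le_top)]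

variable {K : Type*} [Field K] [Algebra F K] [Fintype K] [DecidableEq K] [Fintype F]

theorem rm_minpoly (t s : K) :
    ((minpoly F t).map (algebraMap F K)).rootMultiplicity s = if minpoly F s = minpoly F t then 1 else 0 := by
  have hi : IsIntegral F t := Algebra.IsIntegral.isIntegral t
  have h0 : (minpoly F t).map (algebraMap F K) ≠ 0 := map_ne_zero (minpoly.ne_zero hi)
  split_ifs with h
  · refine le_antisymm (rootMultiplicity_le_one_of_separable (Separable.map (Algebra.IsSeparable.isSeparable F t)) _)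
      ((rootMultiplicity_pos h0).2 ?_)
    rw [IsRoot, eval_map_algebraMap, ← h, minpoly.aeval]
  · refine rootMultiplicity_eq_zero fun e => h ?_
    rw [IsRoot, eval_map_algebraMap] at e
    exact (minpoly.eq_of_irreducible_of_monic (minpoly.irreducible hi) e (minpoly.monic hi)).symm

theorem rm_pow_mul (t : K) {r : F[X]} (hr : r ≠ 0) (j : ℕ) : ((minpoly F t ^ j * r).map (algebraMap F K)).rootMultiplicity t =
    j + (r.map (algebraMap F K)).rootMultiplicity t := by
  have h0 := minpoly.ne_zero (Algebra.IsIntegral.isIntegral (R := F) t)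
  induction j with
  | zero => simp
  | succ j ih =>
    rw [pow_succ', mul_assoc, Polynomial.map_mul, rootMultiplicity_mul (mul_ne_zero (map_ne_zero h0)
      (map_ne_zero (mul_ne_zero (pow_ne_zero _ h0) hr))), ih, rm_minpoly, if_pos rfl]
    ring

theorem pow_dvd_iff (t : K) {h : F[X]} (hh : h ≠ 0) (j : ℕ) :
    minpoly F t ^ j ∣ h ↔ j ≤ (h.map (algebraMap F K)).rootMultiplicity t := by
  refine ⟨?_, fun hj => ?_⟩
  · rintro ⟨r, rfl⟩
    rw [rm_pow_mul t (right_ne_zero_of_mul hh)]; omega
  · obtain ⟨i, r, h1, rfl⟩ := WfDvdMonoid.max_power_factor hh (minpoly.irreducible (Algebra.IsIntegral.isIntegral (R := F) t))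
    rw [rm_pow_mul t (right_ne_zero_of_mul hh), rootMultiplicity_eq_zero fun e => h1 (minpoly.dvd F t
      (by rwa [IsRoot, eval_map_algebraMap] at e))] at hj
    exact (pow_dvd_pow _ hj).mul_right _

/-- the von Mangoldt function attached to `θ` -/
noncomputable def vm (θ : Kˣ →* ℂˣ) (h : F[X]) : ℂ :=
  ∑ t : Kˣ, if ∃ j, 0 < j ∧ h = minpoly F (t : K) ^ j then (θ t : ℂ) else 0

variable [Fintype (Submodule F V)]

theorem D_cyc (θ : Kˣ →* ℂˣ) (hc : LinearMap.range (ev g v) = ⊤) (W : Submodule F V) :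
    St g W → D (bl θ) g W = vm θ (cp g W) := by
  induction W using WellFoundedLT.induction with
  | ind W ih =>
  intro hW
  have key : ∑ U with U ≤ W, (if St g U then vm θ (cp g U) else 0) = bl θ (cp g W) := by
    rw [← Finset.sum_filter]
    simp only [vm, bl]
    rw [Finset.sum_comm]
    refine Finset.sum_congr rfl fun t _ => ?_
    have hi : IsIntegral F (t : K) := Algebra.IsIntegral.isIntegral _
    have hd : ∀ j, minpoly F (t : K) ^ j ∣ cp g W → cp g (LinearMap.ker (aeval g (minpoly F (t : K) ^ j) : End F V)) =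
        minpoly F (t : K) ^ j := fun j hj =>
      cp_ker hc ((minpoly.monic hi).pow j) (hj.trans (cp_top g ▸ cp_dvd hW (st_top g) le_top))
    rw [← Finset.sum_filter, Finset.sum_const, nsmul_eq_mul, mul_comm, ← Nat.sub_zero (rootMultiplicity _ _), ← Nat.card_Ioc]
    congr 2
    refine (Finset.card_bij (fun j _ => LinearMap.ker (aeval g (minpoly F (t : K) ^ j) : End F V)) (fun j hj => ?_)
      (fun i hi' j hj e => ?_) fun U hU => ?_).symm
    · rw [Finset.mem_Ioc, ← pow_dvd_iff _ (cp_monic _ _).ne_zero] at hj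
      simp only [Finset.mem_filter, Finset.mem_univ, true_and]
      refine ⟨⟨fun x hx => (ker_cp hc hW).le ?_, st_ker g _⟩, j, hj.1, hd j hj.2⟩
      obtain ⟨r, hr⟩ := hj.2
      rw [LinearMap.mem_ker, hr, mul_comm, map_mul, End.mul_apply, LinearMap.mem_ker.1 hx, map_zero]
    · rw [Finset.mem_Ioc, ← pow_dvd_iff _ (cp_monic _ _).ne_zero] at hj hi'
      have := hd i hi'.2
      rw [e, hd j hj.2] at this
      exact (pow_injective_of_not_isUnit (minpoly.not_isUnit F _) (minpoly.ne_zero hi) this).symm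
    · simp only [Finset.mem_filter, Finset.mem_univ, true_and] at hU
      obtain ⟨⟨u1, u2⟩, j, hj, e⟩ := hU
      refine ⟨j, ?_, by rw [← e, ker_cp hc u2]⟩
      rw [Finset.mem_Ioc, ← pow_dvd_iff _ (cp_monic _ _).ne_zero, ← e]
      exact ⟨hj, cp_dvd u2 hW u1⟩
  rw [D_of_st hW, ← key, sum_le_eq, if_pos hW, add_sub_assoc, ← Finset.sum_sub_distrib, Finset.sum_eq_zero, add_zero]
  intro U hU
  split_ifs with h
  · rw [ih U (Finset.mem_filter.1 hU).2 h, sub_self]
  · rw [D_of_not h, sub_self]

end Cfsg.Agent.H29.Cu
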