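import Mathlib
import Cfsg.Agent.H29.Cu3

/-! The inner product of two cuspidal functions. -/

set_option autoImplicit false
set_option linter.unusedSectionVars false
set_option linter.unusedVariables false

namespace Cfsg.Agent.H29.Cu

open Cfsg Cfsg.Agent.H6 Module Polynomial Classical
open scoped ComplexConjugate

variable {F : Type*} [Field F] {V : Type*} [AddCommGroup V] [Module F V] [FiniteDimensional F V]
  {g k : End F V} {U W X : Submodule F V} {b : F[X] → ℂ} {v : V}

theorem isUnit_iff_cp (g : End F V) : IsUnit g ↔ g.charpoly.coeff 0 ≠ 0 := by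
  rw [← constantCoeff_apply, Ne, LinearMap.charpoly_constantCoeff_eq_zero_iff, LinearMap.isUnit_iff_ker_eq_bot,
    LinearMap.ker_eq_bot']
  push Not
  exact forall_congr' fun m => ⟨fun h a b => a (h b), fun h a => by_contra fun b => h b a⟩

theorem St.add_un (hX : St g X) {φ : End F V} (hφ : φ ∈ Un X X) : St (g + φ) X := fun x hx => by
  simpa [hφ.1 x hx] using hX x hx

theorem charpoly_add_un (hX : St g X) {φ : End F V} (hφ : φ ∈ Un X X) : (g + φ).charpoly = g.charpoly := by
  rw [← cp_top, ← cp_top, cp_mul hX (st_top g), cp_mul (hX.add_un hφ) (st_top _), inf_top_eq]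
  congr 1
  · simpa using cp_map (g' := g + φ) hX LinearMap.id (fun _ _ e => e) fun w hw => by simp [hφ.1 w hw]
  · congr 1
    refine Submodule.linearMap_qext _ (LinearMap.ext fun w => ?_)
    exact (Submodule.Quotient.eq X).2 (by simpa using hφ.2 w)

theorem isUnit_add_un (hX : St g X) {φ : End F V} (hφ : φ ∈ Un X X) : IsUnit (g + φ) ↔ IsUnit g := by
  rw [isUnit_iff_cp, isUnit_iff_cp g, charpoly_add_un hX hφ]

theorem card_cyc [Fintype (End F V)] [Fintype V] {h : F[X]} (hm : h.Monic) (hd : h.natDegree = finrank F V) :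
    (Finset.univ.filter fun x : End F V × V => LinearMap.range (ev x.1 x.2) = ⊤ ∧ x.1.charpoly = h).card =
      Nat.card (End F V)ˣ := by
  obtain ⟨g0, π, h0, h1, h2⟩ : ∃ (g0 : End F V) (π : F[X] →ₗ[F] V), (∀ p, π (Polynomial.X * p) = g0 (π p)) ∧
      Function.Surjective π ∧ ∀ p, π p = 0 ↔ h ∣ p := by
    have : FiniteDimensional F (AdjoinRoot h) := (AdjoinRoot.powerBasis' hm).finite
    let e : AdjoinRoot h ≃ₗ[F] V := LinearEquiv.ofFinrankEq _ _ (finrank_quotient_span_eq_natDegree.trans hd)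
    exact ⟨e.conj (LinearMap.mulLeft F (AdjoinRoot.root h)), e.toLinearMap ∘ₗ (AdjoinRoot.mkₐ h).toLinearMap,
      fun p => by simp [LinearEquiv.conj_apply_apply], e.surjective.comp AdjoinRoot.mk_surjective,
      fun p => by simp [AdjoinRoot.mk_eq_zero]⟩
  have h3 : ∀ u : (End F V)ˣ, ev (u.1 * g0 * u⁻¹.1) ((u : End F V) (π 1)) = (u : End F V) ∘ₗ π := fun u =>
    ev_eq ((u : End F V) ∘ₗ π) fun p => by
      rw [LinearMap.comp_apply, LinearMap.comp_apply, h0, ← End.mul_apply, ← End.mul_apply, Units.inv_mul_cancel_right]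
  have h4 : ∀ u : (End F V)ˣ, Function.Bijective (u : End F V) := fun u => (End.isUnit_iff _).1 u.isUnit
  have := Fintype.ofFinite (End F V)ˣ
  rw [Nat.card_eq_fintype_card, ← Finset.card_univ]
  refine (Finset.card_bij (fun (u : (End F V)ˣ) _ => (u.1 * g0 * u⁻¹.1, u.1 (π 1))) (fun u _ => ?_)
    (fun u _ u' _ e => ?_) fun x hx => ?_).symm
  · have h5 : LinearMap.range (ev (u.1 * g0 * u⁻¹.1) ((u : End F V) (π 1))) = ⊤ := by
      rw [h3, LinearMap.range_eq_top]; exact (h4 u).2.comp h1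
    refine Finset.mem_filter.2 ⟨Finset.mem_univ _, h5, ?_⟩
    rw [← cp_top, ← h5]
    exact cp_range hm fun p => by rw [h3, LinearMap.comp_apply, map_eq_zero_iff _ (h4 u).1, h2]
  · have e1 := h3 u
    rw [(Prod.mk.inj e).1, (Prod.mk.inj e).2, h3] at e1
    refine Units.ext (LinearMap.ext fun w => ?_)
    obtain ⟨p, rfl⟩ := h1 w
    exact (LinearMap.congr_fun e1 p).symm
  · obtain ⟨g, v⟩ := x
    obtain ⟨x1, x2⟩ := (Finset.mem_filter.1 hx).2
    have hk : LinearMap.ker π = LinearMap.ker (ev g v) := by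
      ext p; rw [LinearMap.mem_ker, LinearMap.mem_ker, ann x1, h2, x2]
    let f : V ≃ₗ[F] V := (π.quotKerEquivOfSurjective h1).symm ≪≫ₗ Submodule.quotEquivOfEq _ _ hk ≪≫ₗ
      (ev g v).quotKerEquivOfSurjective (LinearMap.range_eq_top.1 x1)
    have hf : ∀ p, f (π p) = ev g v p := fun p => by simp [f]
    let u : (End F V)ˣ := LinearMap.GeneralLinearGroup.ofLinearEquiv f
    have hu : ∀ w, (u : End F V) w = f w := fun _ => rfl
    refine ⟨u, Finset.mem_univ _, Prod.ext ?_ (by simp only [hu, hf, ev_one])⟩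
    simp only
    rw [Units.mul_inv_eq_iff_eq_mul]
    refine LinearMap.ext fun w => ?_
    obtain ⟨p, rfl⟩ := h1 w
    simp only [End.mul_apply, hu, ← h0, hf, ev_X]

variable [Fintype (Submodule F V)] [Fintype (End F V)]

theorem vanish (hb : ∀ h k : F[X], h.Monic → k.Monic → b (h * k) = b h + b k) (h1 : X ≠ ⊥) (h2 : X ≠ ⊤)
    (a : End F V → ℂ) (ha : ∀ g, ¬ St g X → a g = 0) (ha' : ∀ g, St g X → ∀ φ ∈ Un X X, a (g + φ) = a g) :
    ∑ g, a g * conj (D b g ⊤) = 0 := by
  refine avg _ (Finset.univ.filter fun φ : End F V => φ ∈ Un X (X ⊓ ⊤)) ⟨0, by simp⟩ (by simp) _ fun g _ => ?_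
  by_cases hg : St g X
  · rw [Finset.sum_congr rfl fun φ hφ => by rw [ha' g hg φ (by simpa using hφ)], ← Finset.mul_sum, ← map_sum,
      cusp hb X ⊤ g hg (by simpa using h1) (by simpa using h2), map_zero, mul_zero]
  · refine Finset.sum_eq_zero fun φ hφ => ?_
    rw [ha _ fun e => hg (by simpa using e.add_un (neg_mem (by simpa using hφ : φ ∈ Un X X))), zero_mul]

theorem norm1 [Fintype V] [Nontrivial V] {b' : F[X] → ℂ} (hb : b 1 = 0)
    (hb' : ∀ h k : F[X], h.Monic → k.Monic → b' (h * k) = b' h + b' k) :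
    ((Fintype.card V : ℂ) - 1) * ∑ g : End F V, (if IsUnit g then D b g ⊤ else 0) * conj (D b' g ⊤) =
      ∑ x : End F V × V, (if LinearMap.range (ev x.1 x.2) = ⊤ ∧ IsUnit x.1 then b x.1.charpoly else 0) *
        conj (D b' x.1 ⊤) := by
  have s1 : ∑ g : End F V, (if IsUnit g then D b g ⊤ else 0) * conj (D b' g ⊤) =
      ∑ g : End F V, (if IsUnit g then b g.charpoly else 0) * conj (D b' g ⊤) := by
    have e : ∀ g : End F V, (if IsUnit g then b g.charpoly else 0) * conj (D b' g ⊤) =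
        ∑ U, (if IsUnit g then D b g U else 0) * conj (D b' g ⊤) := fun g => by
      rw [← Finset.sum_mul, ← cp_top, ← D_sum (b := b) (st_top g)]
      split_ifs <;> simp
    rw [Finset.sum_congr rfl fun g _ => e g, Finset.sum_comm, Finset.sum_eq_single (⊤ : Submodule F V) (fun U _ hU => ?_) (by simp)]
    by_cases h0 : U = ⊥
    · simp [h0, D_bot hb]
    refine vanish hb' h0 hU _ (fun g hg => by simp [D_of_not hg]) fun g hg φ hφ => ?_
    exact if_congr (isUnit_add_un hg hφ) (D_congr (g := g) fun w hw => by simp [hφ.1 w hw]) rfl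
  have s2 : ∀ v : V, v ≠ 0 → ∑ g : End F V, (if IsUnit g then b g.charpoly else 0) * conj (D b' g ⊤) =
      ∑ g : End F V, (if LinearMap.range (ev g v) = ⊤ ∧ IsUnit g then b g.charpoly else 0) * conj (D b' g ⊤) := by
    intro v hv
    have e : ∀ g : End F V, (if IsUnit g then b g.charpoly else 0) * conj (D b' g ⊤) =
        ∑ U, (if LinearMap.range (ev g v) = U ∧ IsUnit g then b g.charpoly else 0) * conj (D b' g ⊤) := fun g => by
      rw [← Finset.sum_mul, Finset.sum_eq_single (LinearMap.range (ev g v)) (fun U _ hU => by simp [hU.symm]) (by simp)]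
      simp
    rw [Finset.sum_congr rfl fun g _ => e g, Finset.sum_comm, Finset.sum_eq_single (⊤ : Submodule F V) (fun U _ hU => ?_) (by simp)]
    by_cases h0 : U = ⊥
    · refine Finset.sum_eq_zero fun g _ => ?_
      rw [if_neg fun e => hv ((e.1.trans h0).le ⟨1, ev_one g v⟩), zero_mul]
    refine vanish hb' h0 hU _ (fun g hg => if_neg fun ⟨e, _⟩ => hg (e ▸ st_range g v)) fun g hg φ hφ => ?_
    refine if_congr (and_congr ⟨fun e => ?_, fun e => ?_⟩ (isUnit_add_un hg hφ)) (by rw [charpoly_add_un hg hφ]) rfl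
    · rwa [ev_congr (g := g + φ) (k := g) fun w hw => by simp [hφ.1 w (e.le hw)]]
    · rwa [ev_congr (g := g) (k := g + φ) fun w hw => by simp [hφ.1 w (e.le hw)]]
  rw [s1, Fintype.sum_prod_type_right, ← Finset.add_sum_erase _ _ (Finset.mem_univ (0 : V)),
    Finset.sum_congr rfl fun v hv => (s2 v (Finset.mem_erase.1 hv).1).symm, Finset.sum_const,
    Finset.card_erase_of_mem (Finset.mem_univ _), Finset.card_univ, nsmul_eq_mul, Nat.cast_pred Fintype.card_pos,
    Finset.sum_eq_zero (s := Finset.univ) (f := fun g : End F V => (if LinearMap.range (ev g 0) = ⊤ ∧ _ then _ else 0) * _),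
    zero_add]
  intro g _
  rw [if_neg fun e => ?_, zero_mul]
  obtain ⟨w, hw⟩ := exists_ne (0 : V)
  obtain ⟨p, rfl⟩ := e.1.ge (Submodule.mem_top (x := w))
  exact hw (by simp [ev_apply])

variable {K : Type*} [Field K] [Algebra F K] [Fintype K] [DecidableEq K] [Fintype F]

theorem bl_add (θ : Kˣ →* ℂˣ) (h k : F[X]) (hh : h.Monic) (hk : k.Monic) : bl θ (h * k) = bl θ h + bl θ k :=
  bl_mul θ hh.ne_zero hk.ne_zero

theorem bl_one (θ : Kˣ →* ℂˣ) : bl θ (1 : F[X]) = 0 := by simpa using bl_add θ (1 : F[X]) 1 monic_one monic_one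

theorem norm2 [Fintype V] [Nontrivial V] (θ θ' : Kˣ →* ℂˣ) :
    ((Fintype.card V : ℂ) - 1) * ∑ g : End F V, (if IsUnit g then D (bl θ) g ⊤ else 0) * conj (D (bl θ') g ⊤) =
      Nat.card (End F V)ˣ * ∑ t : Kˣ with (minpoly F t.1).natDegree ∣ finrank F V,
        bl θ (minpoly F (t : K) ^ (finrank F V / (minpoly F (t : K)).natDegree)) * conj (θ' t : ℂ) := by
  rw [norm1 (bl_one θ) (bl_add θ'), Finset.mul_sum, Finset.sum_filter]
  have e : ∀ x : End F V × V, (if LinearMap.range (ev x.1 x.2) = ⊤ ∧ IsUnit x.1 then bl θ x.1.charpoly else 0) *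
      conj (D (bl θ') x.1 ⊤) = ∑ t : Kˣ, if (minpoly F (t : K)).natDegree ∣ finrank F V then
        (if LinearMap.range (ev x.1 x.2) = ⊤ ∧ x.1.charpoly = minpoly F (t : K) ^ (finrank F V / (minpoly F (t : K)).natDegree)
          then bl θ (minpoly F (t : K) ^ (finrank F V / (minpoly F (t : K)).natDegree)) * conj (θ' t : ℂ) else 0) else 0 := by
    rintro ⟨g, v⟩
    by_cases hc : LinearMap.range (ev g v) = ⊤
    swap
    · simp [hc]
    rw [D_cyc θ' hc ⊤ (st_top g), cp_top, vm, map_sum, Finset.mul_sum]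
    refine Finset.sum_congr rfl fun t _ => ?_
    have hi : IsIntegral F (t : K) := Algebra.IsIntegral.isIntegral _
    have hd := minpoly.natDegree_pos hi
    simp only [hc, true_and]
    by_cases h1 : ∃ j, 0 < j ∧ g.charpoly = minpoly F (t : K) ^ j
    · have ⟨j, hj, e⟩ := h1
      have e2 : finrank F V = (minpoly F (t : K)).natDegree * j := by
        rw [← g.charpoly_natDegree, e, natDegree_pow, mul_comm]
      have e3 : finrank F V / (minpoly F (t : K)).natDegree = j := by rw [e2, Nat.mul_div_cancel_left _ hd]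
      have e4 : IsUnit g := by
        rw [isUnit_iff_cp, e, coeff_zero_eq_eval_zero, eval_pow, ← coeff_zero_eq_eval_zero]
        exact pow_ne_zero _ (minpoly.coeff_zero_ne_zero hi t.ne_zero)
      rw [if_pos h1, if_pos e4, if_pos (Dvd.intro j e2.symm), e3, if_pos e, e]
    · rw [if_neg h1, map_zero, mul_zero]
      split_ifs with h2 h3
      · exact (h1 ⟨_, Nat.div_pos (Nat.le_of_dvd finrank_pos h2) hd, h3⟩).elim
      · rfl
      · rfl
  rw [Finset.sum_congr rfl fun x _ => e x, Finset.sum_comm]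
  refine Finset.sum_congr rfl fun t _ => ?_
  split_ifs with h
  · rw [← Finset.sum_filter, Finset.sum_const, nsmul_eq_mul, card_cyc ((minpoly.monic (Algebra.IsIntegral.isIntegral _)).pow _)
      (by rw [natDegree_pow, Nat.div_mul_cancel h])]
  · simp

end Cfsg.Agent.H29.Cu
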