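import Mathlib
import Cfsg.Agent.H29.Cu4

/-! The Galois sum and the degree of the cuspidal function. -/

set_option autoImplicit false
set_option linter.unusedSectionVars false
set_option linter.unusedVariables false

namespace Cfsg.Agent.H29.Cu

open Cfsg Cfsg.Agent.H6 Module Polynomial Classical
open scoped ComplexConjugate

universe u

section
variable {F K : Type*} [Field F] [Field K] [Algebra F K] [Fintype K] [DecidableEq K] [Fintype F]

theorem bl_pow (θ : Kˣ →* ℂˣ) {h : F[X]} (hh : h.Monic) (j : ℕ) : bl θ (h ^ j) = j * bl θ h := by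
  induction j with
  | zero => simp [bl_one]
  | succ j ih => rw [pow_succ, bl_add θ _ _ (hh.pow j) hh, ih]; push_cast; ring

theorem deg_dvd_iff (t : Kˣ) (n : ℕ) : (minpoly F t.1).natDegree ∣ n ↔ t ^ Fintype.card F ^ n = t := by
  rw [(minpoly.irreducible (Algebra.IsIntegral.isIntegral (R := F) t.1)).natDegree_dvd_iff_dvd_X_pow_card_pow_sub_X,
    minpoly.dvd_iff, Nat.card_eq_fintype_card, Units.ext_iff]
  simp [sub_eq_zero]

theorem sum_period {f : ℕ → ℂ} {n : ℕ} (h : ∀ i, f (n + i) = f i) (c : ℕ) :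
    ∑ i ∈ Finset.range (n * c), f i = c * ∑ i ∈ Finset.range n, f i := by
  induction c with
  | zero => simp
  | succ c ih => rw [Nat.mul_succ, add_comm, Finset.sum_range_add]; simp only [h, ih]; push_cast; ring

attribute [local instance] Units.mulDistribMulActionRight in
theorem bl_orbit (θ : Kˣ →* ℂˣ) (t : Kˣ) {n : ℕ} (hM : n ∣ finrank F K) (hd : (minpoly F t.1).natDegree ∣ n) :
    bl θ (minpoly F t.1 ^ (n / (minpoly F t.1).natDegree)) = ∑ i ∈ Finset.range n, (θ (t ^ Fintype.card F ^ i) : ℂ) := by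
  have hi : IsIntegral F t.1 := Algebra.IsIntegral.isIntegral _
  have h1 : ∀ s : Kˣ, s ∈ MulAction.orbit Gal(K/F) t ↔ minpoly F s.1 = minpoly F t.1 := fun s => by
    rw [Normal.minpoly_eq_iff_mem_orbit]
    exact exists_congr fun σ => Units.ext_iff
  have h2 : ∀ θ : Kˣ →* ℂˣ, ∑ σ : Gal(K/F), (θ (σ • t) : ℂ) =
      Nat.card (MulAction.stabilizer Gal(K/F) t) * bl θ (minpoly F t.1) := fun θ => by
    rw [sum_smul t fun s => (θ s : ℂ), bl, Finset.sum_filter]
    simp only [rm_minpoly, h1]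
    simp
  have h3 : bl (1 : Kˣ →* ℂˣ) (minpoly F t.1) = (minpoly F t.1).natDegree := by
    rw [← card_rootSet_eq_natDegree (K := K) (Algebra.IsSeparable.isSeparable F t.1) (Normal.splits inferInstance _), bl]
    simp only [rm_minpoly, MonoidHom.one_apply, Units.val_one, one_mul, Nat.cast_ite, Nat.cast_one, Nat.cast_zero,
      Finset.sum_boole, ← Set.toFinset_card]
    congr 1
    refine Finset.card_bij (fun s _ => s.1) (fun s hs => ?_) (fun _ _ _ _ => Units.ext) fun s hs => ?_
    · rw [Set.mem_toFinset, mem_rootSet_of_ne (minpoly.ne_zero hi), ← (Finset.mem_filter.1 hs).2, minpoly.aeval]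
    · rw [Set.mem_toFinset, mem_rootSet_of_ne (minpoly.ne_zero hi)] at hs
      have e := minpoly.eq_of_irreducible_of_monic (minpoly.irreducible hi) hs (minpoly.monic hi)
      refine ⟨Units.mk0 s ?_, Finset.mem_filter.2 ⟨Finset.mem_univ _, e.symm⟩, rfl⟩
      rintro rfl
      exact minpoly.coeff_zero_ne_zero hi t.ne_zero (by rw [e, minpoly.zero, coeff_X_zero])
  have h4 : ∀ θ : Kˣ →* ℂˣ, ∑ σ : Gal(K/F), (θ (σ • t) : ℂ) =
      ∑ i ∈ Finset.range (finrank F K), (θ (t ^ Fintype.card F ^ i) : ℂ) := fun θ => by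
    rw [← (FiniteField.bijective_frobeniusAlgEquivOfAlgebraic_pow F K).sum_comp, Finset.sum_range]
    refine Finset.sum_congr rfl fun i _ => ?_
    congr 2
    ext
    simp [AlgEquiv.coe_pow, FiniteField.coe_frobeniusAlgEquivOfAlgebraic_iterate]
  have h5 := (deg_dvd_iff t n).1 hd
  obtain ⟨c, hc⟩ := hM
  obtain ⟨j, hj⟩ := hd
  have h6 := (h2 1).symm.trans (h4 1)
  have h7 := (h2 θ).symm.trans (h4 θ)
  rw [hc, sum_period fun i => by rw [pow_add, pow_mul, h5]] at h7
  have hc0 : (c : ℂ) ≠ 0 := Nat.cast_ne_zero.2 (by rintro rfl; exact finrank_pos.ne' (hc.trans (mul_zero _)))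
  have hd0 := minpoly.natDegree_pos hi
  rw [bl_pow θ (minpoly.monic hi), show n / (minpoly F t.1).natDegree = j by rw [hj, Nat.mul_div_cancel_left _ hd0]]
  simp only [h3, hc, MonoidHom.one_apply, Units.val_one, Finset.sum_const, Finset.card_range, nsmul_eq_mul, mul_one] at h6
  have h8 : (Nat.card (MulAction.stabilizer Gal(K/F) t) : ℂ) = j * c := by
    refine mul_right_cancel₀ (Nat.cast_ne_zero.2 hd0.ne') (h6.trans ?_)
    conv_lhs => rw [hj]
    push_cast; ring
  refine mul_left_cancel₀ hc0 ?_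
  rw [← h7, h8]; ring

theorem char_sum (θ : Kˣ →* ℂˣ) (hθ : Function.Injective θ) {N : ℕ} (hN : N ∣ Nat.card Kˣ) (a a' : ℕ) :
    ∑ t : Kˣ with t ^ N = 1, (θ (t ^ a) : ℂ) * conj (θ (t ^ a') : ℂ) = if a ≡ a' [MOD N] then (N : ℂ) else 0 := by
  let H := (powMonoidHom N : Kˣ →* Kˣ).ker
  have hH : Nat.card H = N := by rw [IsCyclic.card_powMonoidHom_ker, Nat.gcd_eq_right hN]
  let ψ : H →* ℂ := ((Units.coeHom ℂ).comp θ).comp ((powMonoidHom a / powMonoidHom a' : Kˣ →* Kˣ).comp H.subtype)
  have h1 : ∀ t : H, (θ (t.1 ^ a) : ℂ) * conj (θ (t.1 ^ a') : ℂ) = ψ t := fun t => by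
    rw [← Complex.inv_eq_conj (Complex.norm_eq_one_of_pow_eq_one (n := Nat.card Kˣ)
      (by rw [← Units.val_pow_eq_pow_val, ← map_pow, pow_card_eq_one', map_one, Units.val_one]) Nat.card_pos.ne')]
    simp [ψ, div_eq_mul_inv]
  rw [Finset.sum_subtype (p := (· ∈ H)) _ (by simp [H]), Finset.sum_congr rfl fun t _ => h1 t, sum_hom_units,
    ← Nat.card_eq_fintype_card, hH]
  obtain ⟨γ, hγ⟩ := IsCyclic.exists_ofOrder_eq_natCard (α := H)
  have h2 : ∀ t : H, ψ t = 1 ↔ t ^ a = t ^ a' := fun t => by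
    rw [Subtype.ext_iff, ← div_eq_one (a := (t ^ a).1), ← map_eq_one_iff θ hθ, Units.ext_iff]; rfl
  rw [Nat.cast_ite, Nat.cast_zero]
  refine if_congr ⟨fun e => ?_, fun e => MonoidHom.ext fun t => (h2 t).2 (pow_eq_pow_iff_modEq.2
    (e.of_dvd (hH ▸ orderOf_dvd_natCard t)))⟩ rfl rfl
  rw [← hH, ← hγ, ← pow_eq_pow_iff_modEq, ← h2, e]; rfl

end

variable {F : Type*} [Field F] [Fintype F]

theorem card_un {V : Type*} [AddCommGroup V] [Module F V] [FiniteDimensional F V] [Fintype (End F V)] (X A : Submodule F V) :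
    (Finset.univ.filter fun φ : End F V => φ ∈ Un X A).card = Fintype.card F ^ ((finrank F V - finrank F X) * finrank F A) := by
  let f : ((V ⧸ X) →ₗ[F] A) → Un X A := fun ψ => ⟨A.subtype ∘ₗ ψ ∘ₗ X.mkQ,
    fun x hx => by simp [(Submodule.Quotient.mk_eq_zero X).2 hx], fun v => (ψ _).2⟩
  have hf : Function.Bijective f := by
    refine ⟨fun ψ ψ' e => Submodule.linearMap_qext _ (LinearMap.ext fun v => Subtype.ext ?_), fun φ => ?_⟩
    · exact LinearMap.congr_fun (congrArg Subtype.val e) v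
    · exact ⟨X.liftQ (φ.1.codRestrict A φ.2.2) fun x hx => Subtype.ext (φ.2.1 x hx), rfl⟩
  rw [← Fintype.card_subtype, ← Nat.card_eq_fintype_card, ← Nat.card_congr (Equiv.ofBijective f hf),
    Module.natCard_eq_pow_finrank (K := F), Module.finrank_linearMap, Nat.card_eq_fintype_card,
    ← X.finrank_quotient_add_finrank, Nat.add_sub_cancel]

theorem finrank_split {V : Type*} [AddCommGroup V] [Module F V] [FiniteDimensional F V] (X U : Submodule F V) :
    finrank F U = finrank F (X ⊓ U :) + finrank F (U.map X.mkQ) := by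
  have h : ∀ W : Submodule F V, St (1 : End F V) W := fun _ _ h => h
  rw [← cp_deg (h U), cp_mul (h X) (h U), (cp_monic _ _).natDegree_mul (cp_monic _ _), cp_deg (h _),
    cp_deg ((h U).map (g' := X.mapQ X 1 (h X)) X.mkQ fun _ _ => rfl)]

/-- the signed degree -/
noncomputable def dl (q : ℂ) (w : ℕ) : ℂ := if w = 0 then 0 else ∏ i ∈ Finset.Ico 1 w, (1 - q ^ i)

theorem dl_succ (q : ℂ) (w : ℕ) : dl q (w + 1) + q ^ w * dl q w = dl q w + if w = 0 then 1 else 0 := by
  rcases w with _ | w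
  · simp [dl]
  · simp only [dl, Nat.succ_ne_zero, if_false]
    rw [Finset.prod_Ico_succ_top (by omega)]; ring

theorem sum_dl (n : ℕ) : ∀ (V : Type u) [AddCommGroup V] [Module F V] [FiniteDimensional F V] [Fintype (Submodule F V)]
    (W : Submodule F V), finrank F W = n → ∑ U : Submodule F V with U ≤ W, dl (Fintype.card F) (finrank F U) = n := by
  induction n with
  | zero =>
    intro V _ _ _ _ W hW
    refine (Finset.sum_eq_zero fun U hU => if_pos ?_).trans Nat.cast_zero.symm
    have := Submodule.finrank_mono (Finset.mem_filter.1 hU).2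
    omega
  | succ n ih =>
    intro V _ _ _ _ W hW
    obtain ⟨w, hw, hw0⟩ := Submodule.exists_mem_ne_zero_of_ne_bot (p := W) (by rintro rfl; simp at hW)
    obtain ⟨X, hX, h1⟩ : ∃ X : Submodule F V, X ≤ W ∧ finrank F X = 1 :=
      ⟨_, (Submodule.span_singleton_le_iff_mem w W).2 hw, finrank_span_singleton hw0⟩
    have : Finite V := Module.finite_of_finite F
    have : Finite (End F V) := Module.finite_of_finite F
    have := Fintype.ofFinite (End F V)
    have : Finite (Submodule F (V ⧸ X)) := Finite.of_injective _ (Submodule.comap_injective_of_surjective X.mkQ_surjective)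
    have := Fintype.ofFinite (Submodule F (V ⧸ X))
    have h2 := finrank_split X W
    rw [inf_eq_left.2 hX] at h2
    rw [← Finset.sum_fiberwise_of_maps_to (g := fun U => U.map X.mkQ) (t := Finset.univ.filter (· ≤ W.map X.mkQ))
      fun U hU => Finset.mem_filter.2 ⟨Finset.mem_univ _, Submodule.map_mono (Finset.mem_filter.1 hU).2⟩,
      Nat.cast_succ, ← ih _ (W.map X.mkQ) (by omega)]
    have h3 : ∑ B : Submodule F (V ⧸ X) with B ≤ W.map X.mkQ, (if finrank F B = 0 then (1 : ℂ) else 0) = 1 := by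
      simp [Submodule.finrank_eq_zero]
    rw [← h3, ← Finset.sum_add_distrib]
    refine Finset.sum_congr rfl fun B hB => ?_
    have hB := (Finset.mem_filter.1 hB).2
    have c1 : X ≤ B.comap X.mkQ := Submodule.le_comap_mkQ X B
    have c2 : (B.comap X.mkQ).map X.mkQ = B := Submodule.map_comap_eq_of_surjective X.mkQ_surjective B
    have c3 := finrank_split X (B.comap X.mkQ)
    rw [inf_eq_left.2 c1, c2, h1, add_comm] at c3
    have c4 := cnt_lift hB
    rw [inf_eq_left.2 hX, Finset.filter_congr (q := fun φ => φ ∈ Un (B.comap X.mkQ) X)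
      fun φ _ => ⟨fun h => ⟨h.2, h.1.2⟩, fun h => ⟨⟨fun x hx => h.1 x (c1 hx), h.2⟩, h.1⟩⟩, card_un, card_un, c3, h1,
      show (finrank F V - 1) * 1 = finrank F B + (finrank F V - (finrank F B + 1)) * 1 by
        have := (B.comap X.mkQ).finrank_le; omega, pow_add, Nat.mul_left_inj (pow_ne_zero _ Fintype.card_ne_zero)] at c4
    rw [← dl_succ, ← c3, Finset.filter_filter, ← Finset.sum_filter_add_sum_filter_not _ (X ≤ ·), ← Nat.cast_pow, ← c4,
      ← nsmul_eq_mul, ← Finset.sum_const, Finset.filter_filter, Finset.filter_filter]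
    congr 1
    · rw [Finset.sum_eq_single_of_mem (B.comap X.mkQ)]
      · refine Finset.mem_filter.2 ⟨Finset.mem_univ _, ⟨(Submodule.comap_mono hB).trans ?_, c2⟩, c1⟩
        rw [Submodule.comap_map_mkQ, sup_eq_right.2 hX]
      · intro U hU hne
        obtain ⟨⟨-, rfl⟩, u2⟩ := (Finset.mem_filter.1 hU).2
        exact (hne (by rw [Submodule.comap_map_mkQ, sup_eq_right.2 u2])).elim
    · have c5 : ∀ U, ¬ X ≤ U ↔ X ⊓ U = ⊥ := fun U => by
        rw [← disjoint_iff, ((Submodule.isAtom_iff_finrank_eq_one).2 h1).not_le_iff_disjoint]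
      refine Finset.sum_congr (Finset.filter_congr fun U _ => by rw [c5, and_right_comm]) fun U hU => ?_
      obtain ⟨⟨-, u2⟩, rfl⟩ := (Finset.mem_filter.1 hU).2
      rw [finrank_split X U, u2, finrank_bot, zero_add]

theorem D_one {V : Type u} [AddCommGroup V] [Module F V] [FiniteDimensional F V] [Fintype (Submodule F V)]
    {K : Type*} [Field K] [Algebra F K] [Fintype K] [DecidableEq K] (θ : Kˣ →* ℂˣ) (W : Submodule F V) :
    D (bl θ) (1 : End F V) W = dl (Fintype.card F) (finrank F W) := by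
  induction W using WellFoundedLT.induction with
  | ind W ih =>
  have h : St (1 : End F V) W := fun _ h => h
  have e : bl θ (cp (1 : End F V) W) = finrank F W := by
    have e1 : (1 : End F V).restrict h = 1 := rfl
    rw [cp, dif_pos h, e1, LinearMap.charpoly_one, ← C_1, bl_pow θ (monic_X_sub_C (1 : F)), bl]
    simp only [Polynomial.map_sub, map_X, map_C, map_one (algebraMap F K), rootMultiplicity_X_sub_C]
    simp
  rw [D_of_st h, e, ← sum_dl (F := F) _ V W rfl, sum_le_eq, Finset.sum_congr rfl fun U hU => ih U (Finset.mem_filter.1 hU).2,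
    add_sub_cancel_right]

end Cfsg.Agent.H29.Cu
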