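import Mathlib
import Cfsg.Agent.H29.Cu5

/-! The cuspidal characters of the general linear group. -/

set_option autoImplicit false
set_option linter.unusedSectionVars false
set_option linter.unusedVariables false

namespace Cfsg.Agent.H29.Cu

open Cfsg Cfsg.Agent.H6 Module Polynomial Classical
open scoped ComplexConjugate

variable {F : Type*} [Field F] [Fintype F] {K : Type*} [Field K] [Algebra F K] [Fintype K] [DecidableEq K]

theorem norm3 {V : Type*} [AddCommGroup V] [Module F V] [FiniteDimensional F V] [Nontrivial V] [Fintype (Submodule F V)]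
    [Fintype (End F V)ˣ] (θ : Kˣ →* ℂˣ) (hθ : Function.Injective θ) (hM : finrank F V ∣ finrank F K) (a a' : ℕ) :
    ∑ u : (End F V)ˣ, D (bl (θ.comp (powMonoidHom a))) u.1 ⊤ * conj (D (bl (θ.comp (powMonoidHom a'))) u.1 ⊤) =
      Nat.card (End F V)ˣ * ((Finset.range (finrank F V)).filter
        fun i => Fintype.card F ^ i * a ≡ a' [MOD Fintype.card F ^ finrank F V - 1]).card := by
  have : Finite V := Module.finite_of_finite F
  have := Fintype.ofFinite V
  have : Finite (End F V) := Module.finite_of_finite F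
  have := Fintype.ofFinite (End F V)
  have h1 := norm2 (F := F) (V := V) (θ.comp (powMonoidHom a)) (θ.comp (powMonoidHom a'))
  have h2 : Fintype.card V = Fintype.card F ^ finrank F V := Module.card_eq_pow_finrank
  have h3 : 1 < Fintype.card V := Fintype.one_lt_card
  have h4 : Fintype.card V - 1 ∣ Nat.card Kˣ := by
    obtain ⟨c, hc⟩ := hM
    rw [Nat.card_units, Nat.card_eq_fintype_card, Module.card_eq_pow_finrank (K := F) (V := K), hc, pow_mul, ← h2]
    simpa using Nat.sub_dvd_pow_sub_pow (Fintype.card V) 1 c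
  rw [Finset.sum_congr rfl fun (t : Kˣ) ht => by rw [bl_orbit _ t hM (Finset.mem_filter.1 ht).2, Finset.sum_mul],
    Finset.filter_congr (q := fun t : Kˣ => t ^ (Fintype.card V - 1) = 1) fun t _ => by
      rw [deg_dvd_iff, ← h2, ← mul_eq_right (a := t ^ _) (b := t), ← pow_succ, Nat.sub_add_cancel h3.le],
    Finset.sum_comm] at h1
  simp only [MonoidHom.comp_apply, powMonoidHom_apply, ← pow_mul, char_sum θ hθ h4] at h1
  rw [← Finset.sum_filter, Finset.sum_const, nsmul_eq_mul, Nat.cast_pred (by omega)] at h1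
  refine mul_left_cancel₀ (a := (Fintype.card V : ℂ) - 1) (sub_ne_zero.2 (by exact_mod_cast h3.ne')) ?_
  rw [← h2, mul_left_comm, mul_comm (_ - 1) (Finset.card _ : ℂ), ← h1]
  congr 1
  simp only [ite_mul, zero_mul]
  rw [← Finset.sum_filter]
  exact Finset.sum_bij (fun u _ => u.1) (by simp) (fun _ _ _ _ => Units.ext)
    (fun g hg => let ⟨u, hu⟩ := (Finset.mem_filter.1 hg).2; ⟨u, Finset.mem_univ _, hu⟩) fun _ _ => rfl

theorem exists_coord (n k : ℕ) : ∃ X : Submodule F (Fin n → F), ∀ v, v ∈ X ↔ ∀ i : Fin n, k ≤ i.val → v i = 0 :=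
  ⟨{ carrier := {v | ∀ i : Fin n, k ≤ i.val → v i = 0}
     zero_mem' := fun _ _ => rfl
     add_mem' := fun a b i hi => by rw [Pi.add_apply, a i hi, b i hi, add_zero]
     smul_mem' := fun c v a i hi => by rw [Pi.smul_apply, a i hi, smul_zero] }, fun _ => Iff.rfl⟩

theorem exists_chars [DecidableEq F] (n : ℕ) (hn : 2 ≤ n) : ∃ χ : ℕ → GL (Fin n) F → ℂ,
    (∀ a, IsGeneralizedCharacter _ (χ a)) ∧
    (∀ a a', classInner (χ a) (χ a') = ((Finset.range n).filter
        fun i => Fintype.card F ^ i * a ≡ a' [MOD Fintype.card F ^ n - 1]).card) ∧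
    (∀ a, χ a 1 = ∏ i ∈ Finset.Ico 1 n, ((Fintype.card F : ℂ) ^ i - 1)) ∧
    ∀ a (m : ℕ), 0 < m → m < n → (∑ g : GL (Fin n) F, if (∀ i j : Fin n, ¬ (i.val < m ∧ m ≤ j.val) →
      (g : Matrix (Fin n) (Fin n) F) i j = (1 : Matrix (Fin n) (Fin n) F) i j) then χ a g else 0) = 0 := by
  obtain ⟨p, hp⟩ := CharP.exists F
  obtain ⟨r, hpp, hr⟩ := FiniteField.card F p
  have := Fact.mk hpp
  obtain ⟨e, m, hm, hG⟩ := Nat.exists_eq_pow_mul_and_not_dvd (Nat.card_pos (α := GL (Fin n) F)).ne' p hpp.ne_one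
  have hm0 : 0 < m := Nat.pos_of_ne_zero (by rintro rfl; exact hm (dvd_zero p))
  have : NeZero (n * m.totient) := ⟨mul_ne_zero (by omega) (Nat.totient_pos.2 hm0).ne'⟩
  let K := FiniteField.Extension F p (n * m.totient)
  have : Finite K := Module.finite_of_finite F
  have := Fintype.ofFinite K
  have : CharP K p := charP_of_injective_algebraMap (algebraMap F K).injective p
  have h1 : m ∣ Nat.card Kˣ := by
    rw [Nat.card_units, FiniteField.natCard_extension, mul_comm, pow_mul]
    refine (Nat.modEq_iff_dvd' (Nat.one_le_pow _ _ (pow_pos Nat.card_pos _))).1 ?_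
    have := (Nat.ModEq.pow_totient (x := Nat.card F) (n := m) (by
      rw [Nat.card_eq_fintype_card, hr]; exact ((Nat.Prime.coprime_iff_not_dvd hpp).2 hm).pow_left _)).pow n
    rw [one_pow] at this
    exact this.symm
  obtain ⟨θ, hθ⟩ : ∃ θ : Kˣ →* ℂˣ, Function.Injective θ := by
    have : NeZero (Nat.card Kˣ) := ⟨Nat.card_pos.ne'⟩
    let f := mulEquivOfCyclicCardEq (G := Kˣ) (G' := rootsOfUnity (Nat.card Kˣ) ℂ)
      (Complex.card_rootsOfUnity _).symm
    exact ⟨(Subgroup.subtype _).comp f.toMonoidHom, Subtype.val_injective.comp f.injective⟩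
  have : Nontrivial (Fin n) := Fin.nontrivial_iff_two_le.2 hn
  have : Finite (Submodule F (Fin n → F)) := Finite.of_injective _ SetLike.coe_injective
  have := Fintype.ofFinite (Submodule F (Fin n → F))
  have : Finite (End F (Fin n → F)) := Module.finite_of_finite F
  have := Fintype.ofFinite (End F (Fin n → F))
  let T := Matrix.GeneralLinearGroup.toLin (n := Fin n) (R := F)
  let ρ : GL (Fin n) F →* End F (Fin n → F) := (Units.coeHom _).comp T.toMonoidHom
  have hρ : ∀ g v, ρ g v = (g : Matrix (Fin n) (Fin n) F).mulVec v := fun _ _ => rfl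
  refine ⟨fun a g => (-1) ^ (n - 1) * D (bl (θ.comp (powMonoidHom a))) (ρ g) ⊤, fun a => ?_, fun a a' => ?_, fun a => ?_,
    fun a k k0 kn => ?_⟩
  · have := D_gen (b := bl (θ.comp (powMonoidHom a))) (fun c => c ∣ p ^ e * Nat.card Kˣ) (fun _ _ => dvd_trans)
      (fun W G _ _ σ h => lift σ _ h) ⊤ _ ρ (hG ▸ Nat.mul_dvd_mul_left _ h1) fun g => st_top _
    rcases neg_one_pow_eq_or ℂ (n - 1) with h | h <;> simp only [h, one_mul, neg_mul]
    exacts [this, isGen_neg this]
  · have h2 := norm3 (F := F) (V := Fin n → F) θ hθ (by simp [K, FiniteField.finrank_extension]) a a'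
    rw [← T.toEquiv.sum_comp, ← Nat.card_congr T.toEquiv, finrank_fin_fun] at h2
    rw [classInner, inv_mul_eq_iff_eq_mul₀ (Nat.cast_ne_zero.2 Nat.card_pos.ne'), ← h2]
    refine Finset.sum_congr rfl fun g _ => ?_
    rcases neg_one_pow_eq_or ℂ (n - 1) with h | h <;> simp [h] <;> rfl
  · simp only [map_one, D_one, finrank_top, finrank_fin_fun, dl, if_neg (show n ≠ 0 by omega)]
    rw [← Nat.card_Ico, ← Finset.prod_const, ← Finset.prod_mul_distrib]
    exact Finset.prod_congr rfl fun _ _ => by ring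
  · obtain ⟨X, hX⟩ := exists_coord (F := F) n k
    have s1 : St (1 : End F (Fin n → F)) X := fun _ h => h
    have h2 := cusp (bl_add (θ.comp (powMonoidHom a))) X ⊤ 1 s1 (fun e => by
      have : (Pi.single (⟨0, by omega⟩ : Fin n) 1 : Fin n → F) ∈ X ⊓ ⊤ :=
        ⟨(hX _).2 fun i hi => Pi.single_eq_of_ne (fun e => by subst e; simp at hi; omega) _, trivial⟩
      rw [e] at this
      simp at this) fun e => by simpa using (hX _).1 (e (Submodule.mem_top (x := 1))) ⟨k, kn⟩ le_rfl
    rw [← Finset.sum_filter, ← Finset.mul_sum, ← mul_zero ((-1 : ℂ) ^ (n - 1)), ← h2, inf_top_eq]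
    congr 1
    refine Finset.sum_bij (fun g _ => ρ g - 1) (fun g hg => ?_) (fun g _ g' _ e => T.injective (Units.ext (sub_left_injective e)))
      (fun φ hφ => ?_) fun g _ => by rw [add_sub_cancel]
    · have hg := (Finset.mem_filter.1 hg).2
      have h3 : ∀ v i, (ρ g - 1) v i = ∑ j, ((g : Matrix (Fin n) (Fin n) F) i j - (1 : Matrix (Fin n) (Fin n) F) i j) * v j :=
        fun v i => by
          rw [LinearMap.sub_apply, hρ, End.one_apply]
          conv_lhs => rw [← Matrix.one_mulVec v, Matrix.mulVec_mulVec, mul_one, ← Matrix.sub_mulVec]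
          rfl
      refine Finset.mem_filter.2 ⟨Finset.mem_univ _, fun x hx => funext fun i => ?_, fun v => (hX _).2 fun i hi => ?_⟩
      · rw [h3]
        refine Finset.sum_eq_zero fun j _ => ?_
        by_cases hj : k ≤ j.val
        · rw [(hX _).1 hx j hj, mul_zero]
        · rw [hg i j fun e => hj e.2, sub_self, zero_mul]
      · rw [h3]
        exact Finset.sum_eq_zero fun j _ => by rw [hg i j fun e => by omega, sub_self, zero_mul]
    · have hφ := (Finset.mem_filter.1 hφ).2
      obtain ⟨u, hu⟩ := (isUnit_add_un s1 hφ).2 isUnit_one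
      obtain ⟨g, rfl⟩ := T.surjective u
      refine ⟨g, Finset.mem_filter.2 ⟨Finset.mem_univ _, fun i j hij => ?_⟩, by rw [sub_eq_iff_eq_add']; exact hu⟩
      have h3 : ρ g (Pi.single j 1) i = (1 + φ) (Pi.single j 1) i := by rw [← hu]; rfl
      have h4 : φ (Pi.single j 1) i = 0 := by
        by_cases hi : k ≤ i.val
        · exact (hX _).1 (hφ.2 _) i hi
        · rw [hφ.1 _ ((hX _).2 fun l hl => Pi.single_eq_of_ne (fun e => by subst e; omega) _)]; rfl
      simpa [hρ, h4, Matrix.one_apply, Pi.single_apply] using h3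

end Cfsg.Agent.H29.Cu
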