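import Mathlib
import Cfsg.Prelude.Def_G2

/-! Two-class coverings: general lemmas and the group G₂(2^a). -/

set_option autoImplicit false
open Matrix

namespace Cfsg.Agent.H29.Cv

/-- `G` is the union of the conjugates of two proper subgroups. -/
def Cov (G : Type*) [Group G] : Prop :=
  ∃ H K : Subgroup G, H ≠ ⊤ ∧ K ≠ ⊤ ∧ ∀ g : G, ∃ x : G, x * g * x⁻¹ ∈ H ∨ x * g * x⁻¹ ∈ K

theorem cov_quot {G : Type*} [Group G] (N : Subgroup G) [N.Normal] (H K : Subgroup G)
    (hH : H ≠ ⊤) (hK : K ≠ ⊤) (h1 : N ≤ H) (h2 : N ≤ K)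
    (h : ∀ g : G, ∃ x : G, x * g * x⁻¹ ∈ H ∨ x * g * x⁻¹ ∈ K) : Cov (G ⧸ N) := by
  have key : ∀ L : Subgroup G, L ≠ ⊤ → N ≤ L → L.map (QuotientGroup.mk' N) ≠ ⊤ := by
    intro L hL hN h
    apply hL
    have := congrArg (Subgroup.comap (QuotientGroup.mk' N)) h
    rwa [Subgroup.comap_map_eq, QuotientGroup.ker_mk', sup_eq_left.2 hN, Subgroup.comap_top] at this
  refine ⟨H.map (QuotientGroup.mk' N), K.map (QuotientGroup.mk' N), key H hH h1, key K hK h2, ?_⟩
  intro g
  obtain ⟨g, rfl⟩ := QuotientGroup.mk'_surjective N g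
  obtain ⟨x, hx⟩ := h g
  refine ⟨QuotientGroup.mk' N x, ?_⟩
  rw [← map_inv, ← map_mul, ← map_mul]
  exact hx.imp (Subgroup.mem_map_of_mem _) (Subgroup.mem_map_of_mem _)

/-- Artin–Schreier classes in a finite field of characteristic two. -/
theorem exists_delta (F : Type*) [Field F] [Finite F] (h2 : (2 : F) = 0) :
    ∃ δ : F, (∀ c : F, c ^ 2 + c ≠ δ) ∧ ∀ n : F, ∃ c : F, n + c ^ 2 + c = 0 ∨ n + c ^ 2 + c = δ := by
  let P : F →+ F := AddMonoidHom.mk' (fun c => c ^ 2 + c) (fun a b => by linear_combination (a * b) * h2)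
  have hk : Nat.card P.ker = 2 := by
    rw [Nat.card_eq_two_iff]
    refine ⟨⟨0, by simp [P]⟩, ⟨1, by simp [P]; linear_combination h2⟩, by simp, ?_⟩
    rw [Set.eq_univ_iff_forall]
    rintro ⟨c, hc⟩
    have : c * (c + 1) = 0 := by have : c ^ 2 + c = 0 := hc; linear_combination this
    rcases mul_eq_zero.1 this with h | h
    · left; exact Subtype.ext h
    · right; exact Subtype.ext (by show c = 1; linear_combination h - h2)
  have hi : P.range.index = 2 := by
    have h1 := AddSubgroup.card_mul_index P.range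
    have h3 := AddSubgroup.card_mul_index P.ker
    rw [AddSubgroup.index_ker, hk] at h3
    have hp : 0 < Nat.card P.range := Nat.card_pos
    have : Nat.card P.range * P.range.index = Nat.card P.range * 2 := by rw [h1, ← h3, mul_comm]
    exact Nat.eq_of_mul_eq_mul_left hp this
  obtain ⟨a, ha⟩ := AddSubgroup.index_eq_two_iff.1 hi
  refine ⟨a, ?_, ?_⟩
  · intro c hc
    rcases ha 0 with ⟨_, h⟩ | ⟨_, h⟩
    · exact h P.range.zero_mem
    · exact h ⟨c, by simpa [P] using hc⟩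
  · intro n
    rcases ha n with ⟨⟨c, hc⟩, _⟩ | ⟨⟨c, hc⟩, _⟩
    · have hc : c ^ 2 + c = n + a := hc
      exact ⟨c, Or.inr (by linear_combination hc + n * h2)⟩
    · have hc : c ^ 2 + c = n := hc
      exact ⟨c, Or.inl (by linear_combination hc + n * h2)⟩

/-- separation of a vector from a subspace by a dot product -/
theorem exists_dot {F : Type*} [Field F] {ι : Type*} [Fintype ι] [DecidableEq ι]
    (S : Submodule F (ι → F)) (y : ι → F) (hy : y ∉ S) :
    ∃ x : ι → F, x ⬝ᵥ y = 1 ∧ ∀ s ∈ S, x ⬝ᵥ s = 0 := by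
  obtain ⟨f, hf, hS⟩ := Submodule.exists_dual_map_eq_bot_of_notMem hy inferInstance
  have hd : ∀ v : ι → F, (fun i => f (Pi.single i 1)) ⬝ᵥ v = f v := by
    intro v
    conv_rhs => rw [pi_eq_sum_univ' v]
    simp [dotProduct, map_sum, mul_comm, Pi.single_apply]
  refine ⟨(f y)⁻¹ • fun i => f (Pi.single i 1), ?_, ?_⟩
  · rw [smul_dotProduct, hd, smul_eq_mul, inv_mul_cancel₀ hf]
  · intro s hs
    have : f s = 0 := by
      have : f s ∈ S.map f := Submodule.mem_map_of_mem hs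
      rwa [hS, Submodule.mem_bot] at this
    rw [smul_dotProduct, hd, this, smul_zero]

section G2
open Cfsg.Lie
variable {F : Type} [Field F]

abbrev O (F : Type) := Fin 8 → F

def one : O F := ![1, 0, 0, 0, 0, 0, 0, 1]
@[simp] theorem one0 : (one : O F) 0 = 1 := rfl
@[simp] theorem one1 : (one : O F) 1 = 0 := rfl
@[simp] theorem one2 : (one : O F) 2 = 0 := rfl
@[simp] theorem one3 : (one : O F) 3 = 0 := rfl
@[simp] theorem one4 : (one : O F) 4 = 0 := rfl
@[simp] theorem one5 : (one : O F) 5 = 0 := rfl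
@[simp] theorem one6 : (one : O F) 6 = 0 := rfl
@[simp] theorem one7 : (one : O F) 7 = 1 := rfl
def T (x : O F) : F := x 0 + x 7
def N (x : O F) : F := x 0 * x 7 - x 1 * x 4 - x 2 * x 5 - x 3 * x 6
def B (x y : O F) : F :=
  x 0 * y 7 + x 7 * y 0 - x 1 * y 4 - x 2 * y 5 - x 3 * y 6 - x 4 * y 1 - x 5 * y 2 - x 6 * y 3

theorem ext8 {x y : O F} (h0 : x 0 = y 0) (h1 : x 1 = y 1) (h2 : x 2 = y 2) (h3 : x 3 = y 3)
    (h4 : x 4 = y 4) (h5 : x 5 = y 5) (h6 : x 6 = y 6) (h7 : x 7 = y 7) : x = y := by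
  funext i; fin_cases i <;> assumption

theorem zm (x y : O F) : zornMul x y =
    ![x 0 * y 0 + (x 1 * y 4 + x 2 * y 5 + x 3 * y 6),
      x 0 * y 1 + y 7 * x 1 - (x 5 * y 6 - x 6 * y 5),
      x 0 * y 2 + y 7 * x 2 - (x 6 * y 4 - x 4 * y 6),
      x 0 * y 3 + y 7 * x 3 - (x 4 * y 5 - x 5 * y 4),
      y 0 * x 4 + x 7 * y 4 + (x 2 * y 3 - x 3 * y 2),
      y 0 * x 5 + x 7 * y 5 + (x 3 * y 1 - x 1 * y 3),
      y 0 * x 6 + x 7 * y 6 + (x 1 * y 2 - x 2 * y 1),
      x 4 * y 1 + x 5 * y 2 + x 6 * y 3 + x 7 * y 7] := by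
  apply ext8 <;> simp [zornMul, dot3, cross3]

theorem one_mul' (x : O F) : zornMul one x = x := by
  rw [zm]; apply ext8 <;> simp

theorem sq (x : O F) : zornMul x x = T x • x - N x • one := by
  rw [zm]; apply ext8 <;> simp [T, N] <;> ring

theorem N_add (x y : O F) : N (x + y) = N x + N y + B x y := by
  simp [N, B]; ring

/-- action of `G2` on the octonions as a linear map -/
def act (g : G2 F) : O F →ₗ[F] O F := Matrix.mulVecLin ((g : GL (Fin 8) F) : Matrix (Fin 8) (Fin 8) F)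

theorem act_mul (g h : G2 F) (x : O F) : act (g * h) x = act g (act h x) := by
  simp [act, Matrix.mulVec_mulVec]

theorem act_one (x : O F) : act 1 x = x := by simp [act]

theorem act_inv (g : G2 F) (x : O F) : act g⁻¹ (act g x) = x := by
  rw [← act_mul, inv_mul_cancel, act_one]

theorem act_inv' (g : G2 F) (x : O F) : act g (act g⁻¹ x) = x := by
  rw [← act_mul, mul_inv_cancel, act_one]

theorem act_zm (g : G2 F) (x y : O F) : act g (zornMul x y) = zornMul (act g x) (act g y) := g.2 x y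

theorem act_id (g : G2 F) : act g one = one := by
  have h := act_zm g one (act g⁻¹ one)
  rw [one_mul', act_inv', zm] at h
  have := congrFun h
  apply ext8
  · simpa using (this 0).symm
  · simpa using (this 1).symm
  · simpa using (this 2).symm
  · simpa using (this 3).symm
  · simpa using (this 4).symm
  · simpa using (this 5).symm
  · simpa using (this 6).symm
  · simpa using (this 7).symm

theorem act_TN (g : G2 F) (x : O F) : T (act g x) = T x ∧ N (act g x) = N x := by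
  have h := act_zm g x x
  rw [sq, sq, map_sub, map_smul, map_smul, act_id] at h
  by_cases hT : T (act g x) = T x
  · refine ⟨hT, ?_⟩
    rw [hT] at h
    have := congrFun h 0
    simpa using this.symm
  · have hT' : T x - T (act g x) ≠ 0 := fun h => hT (by linear_combination -h)
    have h1 : act g x = ((T x - T (act g x))⁻¹ * (N x - N (act g x))) • one := by
      rw [mul_smul, eq_inv_smul_iff₀ hT', sub_smul, sub_smul]
      rw [sub_eq_sub_iff_sub_eq_sub] at h
      exact h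
    have h2 : x = act g x := by
      have := congrArg (act g⁻¹) h1
      rw [act_inv, map_smul, act_id] at this
      rw [this.trans h1.symm]
      conv_lhs => rw [h1]
      conv_rhs => rw [h1, map_smul, act_id]
    exact absurd (by rw [← h2]) hT

theorem act_B (g : G2 F) (x y : O F) : B (act g x) (act g y) = B x y := by
  have h := (act_TN g (x + y)).2
  rw [map_add, N_add, N_add, (act_TN g x).2, (act_TN g y).2] at h
  linear_combination h

theorem exists_fix (h2 : (2 : F) = 0) (g : G2 F) :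
    ∃ e : O F, T e = 1 ∧ (act g e = e ∨ act g e = e + one) := by
  let Tl : O F →ₗ[F] F := LinearMap.proj (R := F) (φ := fun _ : Fin 8 => F) 0 +
    LinearMap.proj (R := F) (φ := fun _ : Fin 8 => F) 7
  have hTl : ∀ x, Tl x = T x := fun x => rfl
  let S : Submodule F (O F) := (LinearMap.ker Tl).map (act g⁻¹ - LinearMap.id)
  have h1 : (one : O F) ∉ S := by
    rintro ⟨w, hw, h⟩
    have hw : T w = 0 := hw
    have h : act g⁻¹ w = w + one := by rw [← h]; simp
    have h3 := (act_TN g⁻¹ w).2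
    rw [h, N_add] at h3
    simp [N, B, T] at h3 hw
    apply one_ne_zero (α := F)
    linear_combination h3 - hw
  obtain ⟨y, hy1, hy⟩ := exists_dot S one h1
  let e : O F := ![y 7, -y 4, -y 5, -y 6, -y 1, -y 2, -y 3, y 0]
  have he : ∀ s, B e s = y ⬝ᵥ s := by
    intro s; simp [B, e, dotProduct, Fin.sum_univ_succ]; ring
  have hTe : T e = 1 := by
    rw [← hy1, ← he]; simp [T, B, add_comm]
  have hw : ∀ w, T w = 0 → B (act g e - e) w = 0 := by
    intro w hw
    have := hy _ ⟨w, hw, rfl⟩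
    rw [← he] at this
    have h4 := act_B g e (act g⁻¹ w)
    rw [act_inv'] at h4
    simp only [B, LinearMap.sub_apply, LinearMap.id_apply, Pi.sub_apply] at this h4 ⊢
    linear_combination this + h4
  set d := act g e - e with hd
  have hd' : act g e = e + d 0 • one := by
    have a1 := hw ![0, 1, 0, 0, 0, 0, 0, 0] (by simp [T])
    have a2 := hw ![0, 0, 1, 0, 0, 0, 0, 0] (by simp [T])
    have a3 := hw ![0, 0, 0, 1, 0, 0, 0, 0] (by simp [T])
    have a4 := hw ![0, 0, 0, 0, 1, 0, 0, 0] (by simp [T])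
    have a5 := hw ![0, 0, 0, 0, 0, 1, 0, 0] (by simp [T])
    have a6 := hw ![0, 0, 0, 0, 0, 0, 1, 0] (by simp [T])
    have a7 := hw ![1, 0, 0, 0, 0, 0, 0, -1] (by simp [T])
    simp only [B] at a1 a2 a3 a4 a5 a6 a7
    simp at a1 a2 a3 a4 a5 a6 a7
    have : d = d 0 • one := by
      apply ext8 <;> simp [a1, a2, a3, a4, a5, a6]
      linear_combination a7
    rw [← this, hd]; simp
  refine ⟨e, hTe, ?_⟩
  have h3 := (act_TN g e).2
  rw [hd', N_add] at h3
  have h4 : d 0 * (d 0 + 1) = 0 := by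
    simp only [N, B, T, Pi.smul_apply, smul_eq_mul] at h3 hTe
    simp at h3
    linear_combination h3 - d 0 * hTe
  rcases mul_eq_zero.1 h4 with h | h
  · left; rw [hd', h]; simp
  · right; rw [hd', show d 0 = 1 by linear_combination h - h2]; simp

theorem exists_mk (f : O F →ₗ[F] O F) (hm : ∀ x y, f (zornMul x y) = zornMul (f x) (f y))
    (hB : ∀ x y, B (f x) (f y) = B x y) : ∃ g : G2 F, ∀ x, act g x = f x := by
  have hinj : Function.Injective f := by
    rw [injective_iff_map_eq_zero]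
    intro x hx
    have h : ∀ y, B x y = 0 := fun y => by rw [← hB, hx]; simp [B]
    have a0 := h ![1, 0, 0, 0, 0, 0, 0, 0]
    have a1 := h ![0, 1, 0, 0, 0, 0, 0, 0]
    have a2 := h ![0, 0, 1, 0, 0, 0, 0, 0]
    have a3 := h ![0, 0, 0, 1, 0, 0, 0, 0]
    have a4 := h ![0, 0, 0, 0, 1, 0, 0, 0]
    have a5 := h ![0, 0, 0, 0, 0, 1, 0, 0]
    have a6 := h ![0, 0, 0, 0, 0, 0, 1, 0]
    have a7 := h ![0, 0, 0, 0, 0, 0, 0, 1]
    simp [B] at a0 a1 a2 a3 a4 a5 a6 a7
    apply ext8 <;> simpa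
  have hu : IsUnit (LinearMap.toMatrix' f) := by
    rw [← Matrix.mulVec_injective_iff_isUnit]
    intro x y h
    apply hinj
    simpa [LinearMap.toMatrix'_mulVec] using h
  refine ⟨⟨hu.unit, ?_⟩, ?_⟩
  · intro x y
    simp [LinearMap.toMatrix'_mulVec, hm]
  · intro x
    simp [act, LinearMap.toMatrix'_mulVec]

def d1 (u : Fin 3 → F) : O F →ₗ[F] O F where
  toFun x :=
    ![x 0 - (u 0 * x 4 + u 1 * x 5 + u 2 * x 6),
      x 1 + (x 0 - x 7 - (u 0 * x 4 + u 1 * x 5 + u 2 * x 6)) * u 0,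
      x 2 + (x 0 - x 7 - (u 0 * x 4 + u 1 * x 5 + u 2 * x 6)) * u 1,
      x 3 + (x 0 - x 7 - (u 0 * x 4 + u 1 * x 5 + u 2 * x 6)) * u 2,
      x 4 - (x 2 * u 2 - x 3 * u 1), x 5 - (x 3 * u 0 - x 1 * u 2), x 6 - (x 1 * u 1 - x 2 * u 0),
      x 7 + (u 0 * x 4 + u 1 * x 5 + u 2 * x 6)]
  map_add' x y := by apply ext8 <;> simp <;> ring
  map_smul' c x := by apply ext8 <;> simp <;> ring

def d2 (v : Fin 3 → F) : O F →ₗ[F] O F where
  toFun x :=
    ![x 0 + (x 1 * v 0 + x 2 * v 1 + x 3 * v 2),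
      x 1 + (x 5 * v 2 - x 6 * v 1), x 2 + (x 6 * v 0 - x 4 * v 2), x 3 + (x 4 * v 1 - x 5 * v 0),
      x 4 + (-x 0 + x 7 - (x 1 * v 0 + x 2 * v 1 + x 3 * v 2)) * v 0,
      x 5 + (-x 0 + x 7 - (x 1 * v 0 + x 2 * v 1 + x 3 * v 2)) * v 1,
      x 6 + (-x 0 + x 7 - (x 1 * v 0 + x 2 * v 1 + x 3 * v 2)) * v 2,
      x 7 - (x 1 * v 0 + x 2 * v 1 + x 3 * v 2)]
  map_add' x y := by apply ext8 <;> simp <;> ring
  map_smul' c x := by apply ext8 <;> simp <;> ring

/-- the automorphism attached to the matrix with columns `a, b, c` -/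
def d3 (a b c : Fin 3 → F) : O F →ₗ[F] O F where
  toFun x :=
    ![x 0,
      a 0 * x 1 + b 0 * x 2 + c 0 * x 3, a 1 * x 1 + b 1 * x 2 + c 1 * x 3,
      a 2 * x 1 + b 2 * x 2 + c 2 * x 3,
      (b 1 * c 2 - b 2 * c 1) * x 4 + (c 1 * a 2 - c 2 * a 1) * x 5 + (a 1 * b 2 - a 2 * b 1) * x 6,
      (b 2 * c 0 - b 0 * c 2) * x 4 + (c 2 * a 0 - c 0 * a 2) * x 5 + (a 2 * b 0 - a 0 * b 2) * x 6,
      (b 0 * c 1 - b 1 * c 0) * x 4 + (c 0 * a 1 - c 1 * a 0) * x 5 + (a 0 * b 1 - a 1 * b 0) * x 6,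
      x 7]
  map_add' x y := by apply ext8 <;> simp <;> ring
  map_smul' c x := by apply ext8 <;> simp <;> ring

theorem ex_d1 (u : Fin 3 → F) : ∃ g : G2 F, ∀ x, act g x = d1 u x := by
  apply exists_mk
  · intro x y
    rw [zm, zm]
    apply ext8 <;> simp [d1] <;> ring
  · intro x y
    simp [B, d1]; ring

theorem ex_d2 (u : Fin 3 → F) : ∃ g : G2 F, ∀ x, act g x = d2 u x := by
  apply exists_mk
  · intro x y
    rw [zm, zm]
    apply ext8 <;> simp [d2] <;> ring
  · intro x y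
    simp [B, d2]; ring

theorem ex_d3 (a b c : Fin 3 → F)
    (h : a 0 * (b 1 * c 2 - b 2 * c 1) + a 1 * (b 2 * c 0 - b 0 * c 2) + a 2 * (b 0 * c 1 - b 1 * c 0) = 1) :
    ∃ g : G2 F, ∀ x, act g x = d3 a b c x := by
  apply exists_mk
  · intro x y
    rw [zm, zm]
    apply ext8 <;> simp [d3]
    · linear_combination (-(x 1 * y 4 + x 2 * y 5 + x 3 * y 6)) * h
    · linear_combination (a 0 * (x 5 * y 6 - x 6 * y 5) + b 0 * (x 6 * y 4 - x 4 * y 6) + c 0 * (x 4 * y 5 - x 5 * y 4)) * h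
    · linear_combination (a 1 * (x 5 * y 6 - x 6 * y 5) + b 1 * (x 6 * y 4 - x 4 * y 6) + c 1 * (x 4 * y 5 - x 5 * y 4)) * h
    · linear_combination (a 2 * (x 5 * y 6 - x 6 * y 5) + b 2 * (x 6 * y 4 - x 4 * y 6) + c 2 * (x 4 * y 5 - x 5 * y 4)) * h
    · ring
    · ring
    · ring
    · linear_combination (-(x 4 * y 1 + x 5 * y 2 + x 6 * y 3)) * h
  · intro x y
    simp [B, d3]
    linear_combination (-(x 1 * y 4 + x 2 * y 5 + x 3 * y 6 + x 4 * y 1 + x 5 * y 2 + x 6 * y 3)) * h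

/-- the stabiliser of the pair `{e, e + 1}` -/
def Hs (h2 : (2 : F) = 0) (e : O F) : Subgroup (G2 F) where
  carrier := {g | act g e = e ∨ act g e = e + one}
  one_mem' := Or.inl (act_one e)
  mul_mem' := by
    have h11 : e + one + one = e := by apply ext8 <;> simp <;> linear_combination h2
    rintro g h (hg | hg) (hh | hh) <;> simp [act_mul, hg, hh, act_id, h11]
  inv_mem' := by
    have h11 : e + one + one = e := by apply ext8 <;> simp <;> linear_combination h2
    rintro g (hg | hg)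
    · left; rw [← hg, act_inv, hg]
    · right
      have := act_inv g (e + one)
      rwa [map_add, hg, act_id, h11] at this

theorem conj_mem (h2 : (2 : F) = 0) (g x : G2 F) (e e0 : O F) (c : F) (hg : g ∈ Hs h2 e)
    (hx : act x e = e0 + c • one) : x * g * x⁻¹ ∈ Hs h2 e0 := by
  have h0 : act x⁻¹ e0 = e - c • one := by
    have := act_inv x e
    rw [hx, map_add, map_smul, act_id] at this
    rw [← this]; simp
  rcases hg with hg | hg
  · left; simp [act_mul, h0, act_id, hg, hx]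
  · right; simp [act_mul, h0, act_id, hg, hx]; abel

theorem tr0 (h2 : (2 : F) = 0) (e : O F) (hT : T e = 1) (hN : N e = 0) :
    ∃ x : G2 F, ∃ c : F, act x e = ![1, 0, 0, 0, 0, 0, 0, 0] + c • one := by
  simp only [T, N] at hT hN
  obtain ⟨l, hl⟩ : ∃ l : F, 1 + (e 0 - e 7 - l * (e 0 * e 7)) * l = 0 := by
    by_cases h : e 7 = 0
    · refine ⟨1, ?_⟩
      rw [h] at hT ⊢
      linear_combination hT + h2
    · refine ⟨(e 7)⁻¹, ?_⟩
      field_simp
      ring
  obtain ⟨g1, hg1⟩ := ex_d1 ![l * e 1, l * e 2, l * e 3]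
  set y := act g1 e with hy
  have hTy : T y = 1 := by rw [hy, (act_TN g1 e).1]; exact hT
  have hNy : N y = 0 := by rw [hy, (act_TN g1 e).2]; exact hN
  have y1 : y 1 = 0 := by
    rw [hy, hg1]; simp [d1]; linear_combination e 1 * hl + e 1 * l ^ 2 * hN
  have y2 : y 2 = 0 := by
    rw [hy, hg1]; simp [d1]; linear_combination e 2 * hl + e 2 * l ^ 2 * hN
  have y3 : y 3 = 0 := by
    rw [hy, hg1]; simp [d1]; linear_combination e 3 * hl + e 3 * l ^ 2 * hN
  obtain ⟨g2, hg2⟩ := ex_d2 ![y 4, y 5, y 6]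
  refine ⟨g2 * g1, y 7, ?_⟩
  rw [act_mul, ← hy, hg2]
  simp only [T, N, y1, y2, y3] at hTy hNy
  apply ext8 <;> simp [d2, y1, y2, y3]
  · linear_combination hTy - y 7 * h2
  · ring
  · ring
  · ring
  · linear_combination (-y 4) * hTy + y 7 * y 4 * h2
  · linear_combination (-y 5) * hTy + y 7 * y 5 * h2
  · linear_combination (-y 6) * hTy + y 7 * y 6 * h2

theorem tr1 (h2 : (2 : F) = 0) (δ : F) (hδ : ∀ c : F, c ^ 2 + c ≠ δ) (e : O F) (hT : T e = 1)
    (hN : N e = δ) : ∃ x : G2 F, ∃ c : F, act x e = ![0, 1, 0, 0, -δ, 0, 0, 1] + c • one := by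
  have hδ0 : δ ≠ 0 := fun h => hδ 0 (by simp [h])
  -- remove the first coordinate by a scalar is impossible; use `d1`
  obtain ⟨u, hu⟩ : ∃ u : Fin 3 → F, u 0 * e 4 + u 1 * e 5 + u 2 * e 6 = e 0 := by
    have hs : e 1 * e 4 + e 2 * e 5 + e 3 * e 6 ≠ 0 := by
      intro h
      simp only [T, N] at hT hN
      apply hδ (e 0)
      linear_combination hN + h - e 0 * hT + (e 0) ^ 2 * h2
    refine ⟨(e 0 * (e 1 * e 4 + e 2 * e 5 + e 3 * e 6)⁻¹) • ![e 1, e 2, e 3], ?_⟩
    simp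
    field_simp
  obtain ⟨g1, hg1⟩ := ex_d1 u
  set y := act g1 e with hy
  have hTy : T y = 1 := by rw [hy, (act_TN g1 e).1]; exact hT
  have hNy : N y = δ := by rw [hy, (act_TN g1 e).2]; exact hN
  have y0 : y 0 = 0 := by rw [hy, hg1]; simp [d1]; linear_combination -hu
  simp only [T, N, y0] at hTy hNy
  obtain ⟨b, c, h0, h1, h3⟩ : ∃ b c : Fin 3 → F, (b 1 * c 2 - b 2 * c 1) * (-δ) = y 4 ∧
      (b 2 * c 0 - b 0 * c 2) * (-δ) = y 5 ∧ (b 0 * c 1 - b 1 * c 0) * (-δ) = y 6 := by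
    by_cases k4 : y 4 = 0
    · by_cases k5 : y 5 = 0
      · refine ⟨![1, 0, 0], ![0, -y 6 / δ, 0], ?_, ?_, ?_⟩ <;> simp [k4, k5]
        field_simp
      · refine ⟨![0, -y 6 / y 5, 1], ![-y 5 / δ, 0, 0], ?_, ?_, ?_⟩ <;> simp [k4] <;> field_simp
    · refine ⟨![-y 5 / y 4, 1, 0], ![y 6 / δ, 0, -y 4 / δ], ?_, ?_, ?_⟩ <;> simp <;> field_simp
  obtain ⟨g3, hg3⟩ := ex_d3 ![y 1, y 2, y 3] b c (by
    apply mul_right_cancel₀ (neg_ne_zero.2 hδ0)
    simp
    linear_combination -y 1 * h0 - y 2 * h1 - y 3 * h3 + hNy)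
  refine ⟨g3⁻¹ * g1, 0, ?_⟩
  rw [act_mul, ← hy, zero_smul, add_zero]
  have : y = act g3 ![0, 1, 0, 0, -δ, 0, 0, 1] := by
    rw [hg3]
    apply ext8 <;> simp [d3, y0]
    · linear_combination -h0
    · linear_combination -h1
    · linear_combination -h3
    · linear_combination hTy
  rw [this, act_inv]

theorem g2 [Finite F] (h2 : (2 : F) = 0) : Cov (G2 F) := by
  obtain ⟨δ, hδ, hall⟩ := exists_delta F h2
  refine ⟨Hs h2 ![1, 0, 0, 0, 0, 0, 0, 0], Hs h2 ![0, 1, 0, 0, -δ, 0, 0, 1], ?_, ?_, ?_⟩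
  · intro h
    obtain ⟨g, hg⟩ := ex_d1 (F := F) ![1, 0, 0]
    have : g ∈ Hs h2 ![1, 0, 0, 0, 0, 0, 0, 0] := h ▸ Subgroup.mem_top g
    rcases this with k | k <;> have := congrFun k 1 <;> rw [hg] at this <;> simp [d1] at this
  · intro h
    obtain ⟨g, hg⟩ := ex_d1 (F := F) ![0, 1, 0]
    have : g ∈ Hs h2 ![0, 1, 0, 0, -δ, 0, 0, 1] := h ▸ Subgroup.mem_top g
    rcases this with k | k <;> have := congrFun k 2 <;> rw [hg] at this <;> simp [d1] at this
  · intro g
    obtain ⟨e, hT, he⟩ := exists_fix h2 g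
    obtain ⟨c, hc⟩ := hall (N e)
    have hg : g ∈ Hs h2 (e + c • one) := by
      have := conj_mem h2 g 1 e (e + c • one) (-c) he (by simp [act_one])
      simpa using this
    have hT' : T (e + c • one) = 1 := by
      simp only [T] at hT ⊢; simp; linear_combination hT + c * h2
    have hN' : N (e + c • one) = N e + c ^ 2 + c := by
      simp only [T, N] at hT ⊢; simp; linear_combination c * hT
    rcases hc with hc | hc
    · obtain ⟨x, d, hx⟩ := tr0 h2 _ hT' (hN'.trans hc)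
      exact ⟨x, Or.inl (conj_mem h2 g x _ _ d hg hx)⟩
    · obtain ⟨x, d, hx⟩ := tr1 h2 δ hδ _ hT' (hN'.trans hc)
      exact ⟨x, Or.inr (conj_mem h2 g x _ _ d hg hx)⟩

end G2
end Cfsg.Agent.H29.Cv
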