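import Mathlib
import Cfsg.Agent.H29.Cv1
import Cfsg.Agent.H10.Sp

/-! Two-class covering of the symplectic groups in characteristic two. -/

set_option autoImplicit false
open Matrix

namespace Cfsg.Agent.H29.Cv
open Cfsg.Agent.H10

variable {F : Type} [Field F] {m : ℕ}

abbrev W (m : ℕ) (F : Type) := Fin m ⊕ Fin m → F

def Q0 (x : W m F) : F := ∑ i, x (Sum.inl i) * x (Sum.inr i)

noncomputable def Qv (v x : W m F) : F := Q0 x + (spBilin (Fin m) F x v) ^ 2

theorem Q0_add (h2 : (2 : F) = 0) (x y : W m F) :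
    Q0 (x + y) = Q0 x + Q0 y + spBilin (Fin m) F x y := by
  rw [spBilin_apply_sum, Q0, Q0, Q0, ← Finset.sum_add_distrib, ← Finset.sum_add_distrib]
  refine Finset.sum_congr rfl fun i _ => ?_
  simp only [Pi.add_apply]
  linear_combination (x (Sum.inl i) * y (Sum.inr i)) * h2

theorem Q0_smul (c : F) (x : W m F) : Q0 (c • x) = c ^ 2 * Q0 x := by
  rw [Q0, Q0, Finset.mul_sum]
  refine Finset.sum_congr rfl fun i _ => ?_
  simp only [Pi.smul_apply, smul_eq_mul]; ring

theorem sp_symm (h2 : (2 : F) = 0) (x y : W m F) :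
    spBilin (Fin m) F x y = spBilin (Fin m) F y x := by
  have := (spBilin_isAlt (l := Fin m) (F := F)).neg_eq x y
  linear_combination -this - spBilin (Fin m) F y x * h2

def St (v : W m F) : Subgroup (symplecticGroup (Fin m) F) where
  carrier := {g | ∀ x, Qv v (g.1 *ᵥ x) = Qv v x}
  one_mem' := by intro x; simp
  mul_mem' := by
    intro g h hg hh x
    rw [Submonoid.coe_mul, ← mulVec_mulVec, hg, hh]
  inv_mem' := by
    intro g hg x
    rw [← hg, mulVec_mulVec, sp_mul_inv, one_mulVec]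

theorem St_conj (v w : W m F) (g t : symplecticGroup (Fin m) F) (hg : g ∈ St v)
    (ht : ∀ x, Qv w (t.1 *ᵥ x) = Qv v x) : t * g * t⁻¹ ∈ St w := by
  intro x
  rw [Submonoid.coe_mul, Submonoid.coe_mul, ← mulVec_mulVec, ← mulVec_mulVec, ht, hg, ← ht,
    mulVec_mulVec, sp_mul_inv, one_mulVec]

theorem Qv_tv (h2 : (2 : F) = 0) (w u : W m F) (k : F) (x : W m F) :
    Qv w (Cfsg.sympTransvection m u k *ᵥ x) =
      Qv w x + (spBilin (Fin m) F x u) ^ 2 * (k + k ^ 2 * Qv w u) := by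
  rw [sympTransvection_mulVec, Qv, Qv, Qv, Q0_add h2, Q0_smul]
  simp only [map_add, map_smul, LinearMap.add_apply, LinearMap.smul_apply, smul_eq_mul]
  linear_combination (spBilin (Fin m) F x w * k * spBilin (Fin m) F x u * spBilin (Fin m) F u w) * h2

theorem St_tr (h2 : (2 : F) = 0) (v w : W m F) (c : F) (h : Q0 v + c ^ 2 + c = Q0 w) :
    ∃ t : symplecticGroup (Fin m) F, ∀ x, Qv w (t.1 *ᵥ x) = Qv v x := by
  set b := spBilin (Fin m) F v w with hb
  have hs : Qv w (v + w) = (c + b) ^ 2 + (c + b) := by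
    rw [Qv, Q0_add h2, map_add, LinearMap.add_apply, spBilin_isAlt w, ← hb]
    linear_combination -h + (Q0 v - c * b) * h2
  obtain ⟨k, hk⟩ : ∃ k : F, k + k ^ 2 * Qv w (v + w) = 1 := by
    by_cases h0 : Qv w (v + w) = 0
    · exact ⟨1, by simp [h0]⟩
    · refine ⟨(c + b) / Qv w (v + w), ?_⟩
      field_simp
      rw [hs]; ring
  refine ⟨⟨_, sympTransvection_mem (v + w) k⟩, fun x => ?_⟩
  show Qv w (Cfsg.sympTransvection m (v + w) k *ᵥ x) = _
  rw [Qv_tv h2, hk, Qv, Qv, map_add]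
  linear_combination (spBilin (Fin m) F x w ^ 2 + spBilin (Fin m) F x v * spBilin (Fin m) F x w) * h2

theorem St_fix [Finite F] (h2 : (2 : F) = 0) (g : symplecticGroup (Fin m) F) : ∃ v, g ∈ St v := by
  have hinj : Function.Injective (fun a : F => a ^ 2) := by
    intro a b h
    have h : a ^ 2 = b ^ 2 := h
    have : (a - b) ^ 2 = 0 := by linear_combination h + (b ^ 2 - a * b) * h2
    exact sub_eq_zero.1 (pow_eq_zero_iff two_ne_zero |>.1 this)
  have hsurj := Finite.surjective_of_injective hinj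
  choose r hr using hsurj
  have hr : ∀ a, r a ^ 2 = a := hr
  have hg := mem_symplecticGroup_iff_form.1 g.2
  let f : W m F →ₗ[F] F :=
    { toFun := fun x => r (Q0 (g.1 *ᵥ x) + Q0 x)
      map_add' := fun x y => hinj (by
        show _ ^ 2 = _ ^ 2
        rw [add_sq, hr, hr, hr, mulVec_add, Q0_add h2, Q0_add h2, hg]
        linear_combination (spBilin (Fin m) F x y - r (Q0 (g.1 *ᵥ x) + Q0 x) * r (Q0 (g.1 *ᵥ y) + Q0 y)) * h2)
      map_smul' := fun c x => hinj (by
        show _ ^ 2 = _ ^ 2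
        rw [RingHom.id_apply, smul_eq_mul, mul_pow, hr, hr, mulVec_smul, Q0_smul, Q0_smul]; ring) }
  have hf : ∀ x, f x ^ 2 = Q0 (g.1 *ᵥ x) + Q0 x := fun x => hr _
  let L : W m F →ₗ[F] W m F := Matrix.mulVecLin g.1 - LinearMap.id
  have hmem : f ∈ (LinearMap.ker L).dualAnnihilator := by
    rw [Submodule.mem_dualAnnihilator]
    intro x hx
    have hx : g.1 *ᵥ x - x = 0 := hx
    have := hf x
    rw [sub_eq_zero.1 hx] at this
    apply pow_eq_zero_iff two_ne_zero |>.1
    linear_combination this + Q0 x * h2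
  rw [← LinearMap.range_dualMap_eq_dualAnnihilator_ker] at hmem
  obtain ⟨φ, hφ⟩ := hmem
  obtain ⟨v, hv⟩ := (LinearMap.BilinForm.toDual (spBilin (Fin m) F) spBilin_nondegenerate).surjective φ
  refine ⟨v, fun x => ?_⟩
  have h1 : spBilin (Fin m) F v (g.1 *ᵥ x - x) = f x := by
    rw [← hφ, LinearMap.dualMap_apply, ← hv, LinearMap.BilinForm.toDual_def]; rfl
  rw [map_sub, sp_symm h2 v, sp_symm h2 v] at h1
  have h3 := hf x
  rw [← h1] at h3
  rw [Qv, Qv]
  linear_combination h3 + (Q0 (g.1 *ᵥ x) + spBilin (Fin m) F (g.1 *ᵥ x) v * spBilin (Fin m) F x v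
    - spBilin (Fin m) F x v ^ 2) * h2

theorem St_ne (h2 : (2 : F) = 0) (hm : 2 ≤ m) (v : W m F) : St v ≠ ⊤ := by
  intro h
  have key : ∀ u x : W m F, spBilin (Fin m) F x u ≠ 0 → Qv v u = 1 := by
    intro u x hx
    have : (⟨_, sympTransvection_mem u 1⟩ : symplecticGroup (Fin m) F) ∈ St v := h ▸ Subgroup.mem_top _
    have h1 : Qv v (Cfsg.sympTransvection m u 1 *ᵥ x) = Qv v x := this x
    rw [Qv_tv h2] at h1
    have h3 : (spBilin (Fin m) F x u) ^ 2 * (1 + 1 ^ 2 * Qv v u) = 0 := by linear_combination h1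
    rcases mul_eq_zero.1 h3 with k | k
    · exact absurd (pow_eq_zero_iff two_ne_zero |>.1 k) hx
    · linear_combination k - h2
  let i : Fin m := ⟨0, by omega⟩
  let j : Fin m := ⟨1, by omega⟩
  have hij : i ≠ j := by simp [i, j]
  have a1 := key (Pi.single (Sum.inl i) 1) (Pi.single (Sum.inr i) 1)
    (by simp [spBilin_apply_sum, Pi.single_apply])
  have a2 := key (Pi.single (Sum.inl j) 1) (Pi.single (Sum.inr j) 1)
    (by simp [spBilin_apply_sum, Pi.single_apply])
  have a3 := key (Pi.single (Sum.inl i) 1 + Pi.single (Sum.inl j) 1) (Pi.single (Sum.inr j) 1)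
    (by simp [spBilin_apply_sum, Pi.single_apply, hij.symm])
  have b0 : spBilin (Fin m) F (Pi.single (Sum.inl i) 1) (Pi.single (Sum.inl j) 1) = 0 := by
    simp [spBilin_apply_sum, Pi.single_apply]
  rw [Qv, Q0_add h2, b0, map_add, LinearMap.add_apply] at a3
  rw [Qv] at a1 a2
  apply one_ne_zero (α := F)
  linear_combination a1 + a2 - a3 + (1 + spBilin (Fin m) F (Pi.single (Sum.inl i) 1) v *
    spBilin (Fin m) F (Pi.single (Sum.inl j) 1) v) * h2

theorem sp_even [Finite F] (h2 : (2 : F) = 0) (hm : 2 ≤ m) : Cov (Cfsg.PSp m F) := by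
  obtain ⟨δ, -, hall⟩ := exists_delta F h2
  let i : Fin m := ⟨0, by omega⟩
  let w : W m F := Pi.single (Sum.inl i) 1 + Pi.single (Sum.inr i) δ
  have hw : Q0 w = δ := by simp [Q0, w, Pi.single_apply]
  have hc : ∀ v : W m F, Subgroup.center (symplecticGroup (Fin m) F) ≤ St v := by
    intro v z hz x
    rcases (mem_center_sp_iff z).1 hz with h | h
    · rw [h, one_mulVec]
    · rw [h, neg_mulVec, one_mulVec, show -x = x by
        funext a; simp only [Pi.neg_apply]; linear_combination (-x a) * h2]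
  refine cov_quot _ (St 0) (St w) (St_ne h2 hm _) (St_ne h2 hm _) (hc _) (hc _) fun g => ?_
  obtain ⟨v, hv⟩ := St_fix h2 g
  obtain ⟨c, h | h⟩ := hall (Q0 v)
  · obtain ⟨t, ht⟩ := St_tr h2 v 0 c (by rw [h]; simp [Q0])
    exact ⟨t, Or.inl (St_conj v 0 g t hv ht)⟩
  · obtain ⟨t, ht⟩ := St_tr h2 v w c (by rw [h, hw])
    exact ⟨t, Or.inr (St_conj v w g t hv ht)⟩

end Cfsg.Agent.H29.Cv
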