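import Mathlib
import Cfsg.Agent.H29.Cv1
import Cfsg.Agent.L0.GLn4

/-! Two-class covering of `PSL_n(q)` for `n = 2, 3, 4`. -/

set_option autoImplicit false
open Matrix Polynomial

namespace Cfsg.Agent.H29.Cv
open Cfsg.Agent.L0

variable {F : Type} [Field F]

theorem sl_fam {l : Type*} [Fintype l] [DecidableEq l] {J : Type*} [Fintype J]
    (hJ : Fintype.card J < Fintype.card l)
    {v w : J → l → F} (hv : LinearIndependent F v) (hw : LinearIndependent F w) :
    ∃ g : SpecialLinearGroup l F, ∀ j, g.1 *ᵥ v j = w j := by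
  obtain ⟨g, hg⟩ := Submodule.exists_linearEquiv_restrict_eq
    (hv.linearCombinationEquiv.symm.trans hw.linearCombinationEquiv)
  have h1 : ∀ j, g (v j) = w j := fun j => by
    have := hg (hv.linearCombinationEquiv (Finsupp.single j 1))
    rw [LinearEquiv.trans_apply, LinearEquiv.symm_apply_apply] at this
    simpa using this.symm
  obtain ⟨f, f1, f2⟩ := Submodule.exists_dual_map_eq_bot_of_lt_top
    (Submodule.lt_top_of_finrank_lt_finrank (s := Submodule.span F (Set.range v))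
      (by rwa [finrank_span_eq_card hv, Module.finrank_fintype_fun_eq_card])) inferInstance
  obtain ⟨z, hz⟩ := DFunLike.ne_iff.mp f1
  have h2 : ∀ j, f (v j) = 0 := fun j => f2.le ⟨_, Submodule.subset_span ⟨j, rfl⟩, rfl⟩
  have hd : ∀ {y : l → F}, f y = 1 → ∀ u : F,
      LinearMap.det (LinearMap.transvection f ((u - 1) • y)) = u := by
    intro y h u; simp [h]
  refine ⟨⟨LinearMap.toMatrix' (g.toLinearMap ∘ₗ LinearMap.transvection f
    (((LinearMap.det g.toLinearMap)⁻¹ - 1) • (f z)⁻¹ • z)), ?_⟩, fun j => by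
      simp [← toLin'_apply, LinearMap.transvection.apply, h1, h2]⟩
  rw [LinearMap.det_toMatrix', LinearMap.det_comp, hd (by
    simpa using inv_mul_cancel₀ hz), mul_inv_cancel₀ g.isUnit_det'.ne_zero]

theorem root_in [Fintype F] {μ f : F[X]} (hμ : Irreducible μ) (hf : Irreducible f)
    (hd : μ.natDegree ∣ f.natDegree) (k : ℕ) : ∃ c : AdjoinRoot (f ^ k), aeval c μ = 0 := by
  have := Fact.mk hμ
  have := Fact.mk hf
  have := finite_adjoinRoot hf.ne_zero
  have : Finite (AdjoinRoot f) := Module.finite_of_finite F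
  obtain ⟨ψ⟩ : Nonempty (AdjoinRoot μ →ₐ[F] AdjoinRoot f) := by
    apply FiniteField.nonempty_algHom_of_finrank_dvd
    rwa [(AdjoinRoot.powerBasis hμ.ne_zero).finrank, (AdjoinRoot.powerBasis hf.ne_zero).finrank,
      AdjoinRoot.powerBasis_dim, AdjoinRoot.powerBasis_dim]
  obtain ⟨p, hp⟩ := AdjoinRoot.mk_surjective (ψ (AdjoinRoot.root μ))
  have h1 : f ∣ aeval p μ := by
    rw [← AdjoinRoot.mk_eq_zero, ← AdjoinRoot.aeval_eq, ← aeval_algHom_apply, AdjoinRoot.aeval_eq, hp,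
      aeval_algHom_apply, AdjoinRoot.aeval_eq, AdjoinRoot.mk_self, map_zero]
  have h2 : (aeval (AdjoinRoot.mk (f ^ k) p) μ) ^ k = 0 := by
    rw [← AdjoinRoot.aeval_eq, aeval_algHom_apply, AdjoinRoot.aeval_eq, ← map_pow,
      AdjoinRoot.mk_eq_zero]
    exact pow_dvd_pow_of_dvd h1 k
  let φ := FiniteField.frobeniusAlgHom F (AdjoinRoot (f ^ k))
  have hφ : ∀ (j : ℕ) (x : AdjoinRoot (f ^ k)), (φ ^ j) x = x ^ Fintype.card F ^ j := by
    intro j x
    rw [AlgHom.coe_pow, FiniteField.coe_frobeniusAlgHom, pow_iterate]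
  refine ⟨(φ ^ k) (AdjoinRoot.mk (f ^ k) p), ?_⟩
  rw [aeval_algHom_apply, hφ]
  exact pow_eq_zero_of_le (Nat.lt_pow_self Fintype.one_lt_card).le h2

theorem exists_comm_root [Fintype F] {n : ℕ} {μ : F[X]} (hμ : Irreducible μ)
    (A : Matrix (Fin n) (Fin n) F)
    (h : ∀ f : F[X], Irreducible f → f ∣ A.charpoly → μ.natDegree ∣ f.natDegree) :
    ∃ j : Matrix (Fin n) (Fin n) F, Commute A j ∧ aeval j μ = 0 := by
  obtain ⟨m, g, hg, h2, h3⟩ := exists_mdl_ty A
  obtain ⟨φ, -, hA, -⟩ := exists_algHom_of_mdl h2 fun i => (hg i).ne_zero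
  have : ∀ i, ∃ c : AdjoinRoot (g i), aeval c μ = 0 := by
    intro i
    obtain ⟨f, k, hf, -, hk, e⟩ := hg i
    rw [e]
    refine root_in hμ hf (h f hf ?_) k
    rw [charpoly_eq_prod_ty]
    refine (dvd_pow_self f hk.ne').trans (e ▸ Multiset.dvd_prod ?_)
    rw [h3]; simp
  choose c hc using this
  refine ⟨φ c, ?_, ?_⟩
  · rw [← hA]; exact (Commute.all _ _).map φ
  · rw [aeval_algHom_apply, show aeval c μ = 0 from funext fun i => by
      rw [Pi.zero_apply, ← hc i]; exact (aeval_algHom_apply (Pi.evalAlgHom F (fun i => AdjoinRoot (g i)) i) c μ).symm,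
      map_zero]

theorem ty_root {n : ℕ} {μ : F[X]} (hμ : Irreducible μ) (hm : μ.Monic)
    {j : Matrix (Fin n) (Fin n) F} (hj : aeval j μ = 0) :
    ty j = Multiset.replicate (n / μ.natDegree) μ := by
  have h1 : ∀ u ∈ ty j, u = μ := by
    intro u hu
    have hd := (aeval_eq_zero_iff_ty j μ).1 hj u hu
    obtain ⟨k, hk, hk1, e⟩ := (prim_of_mem_ty hu).eq_pow_of_dvd_pow hμ hm (N := 1) (by simpa using hd)
    rw [e, show k = 1 by omega, pow_one]
  have h2 := Multiset.eq_replicate_card.2 h1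
  have h3 := sum_natDegree_ty j
  rw [h2, Multiset.map_replicate, Multiset.sum_replicate, smul_eq_mul, Fintype.card_fin] at h3
  have h4 : n / μ.natDegree = (ty j).card := Nat.div_eq_of_eq_mul_left hμ.natDegree_pos h3.symm
  rw [h4]; exact h2

theorem cm {n : ℕ} (g h : SpecialLinearGroup (Fin n) F) : (g * h).1 = g.1 * h.1 := rfl

theorem c1 {n : ℕ} : (1 : SpecialLinearGroup (Fin n) F).1 = 1 := rfl

/-- the stabiliser of a line -/
def Ln {n : ℕ} (v : Fin n → F) : Subgroup (SpecialLinearGroup (Fin n) F) where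
  carrier := {g | ∃ c : F, c ≠ 0 ∧ g.1 *ᵥ v = c • v}
  one_mem' := ⟨1, one_ne_zero, by rw [c1, one_mulVec, one_smul]⟩
  mul_mem' := by
    rintro g h ⟨c, hc, hg⟩ ⟨d, hd, hh⟩
    exact ⟨d * c, mul_ne_zero hd hc, by
      rw [cm, ← mulVec_mulVec, hh, mulVec_smul, hg, smul_smul]⟩
  inv_mem' := by
    rintro g ⟨c, hc, hg⟩
    refine ⟨c⁻¹, inv_ne_zero hc, ?_⟩
    rw [eq_inv_smul_iff₀ hc, ← mulVec_smul, ← hg, mulVec_mulVec, ← cm,
      inv_mul_cancel, c1, one_mulVec]

/-- the centraliser of a matrix -/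
def Cm {n : ℕ} (j : Matrix (Fin n) (Fin n) F) : Subgroup (SpecialLinearGroup (Fin n) F) where
  carrier := {g | Commute g.1 j}
  one_mem' := Commute.one_left j
  mul_mem' := fun hg hh => Commute.mul_left hg hh
  inv_mem' := by
    intro g hg
    have h1 : (g⁻¹).1 * g.1 = 1 := by rw [← cm, inv_mul_cancel]; rfl
    have h2 : g.1 * (g⁻¹).1 = 1 := by rw [← cm, mul_inv_cancel]; rfl
    have hg : g.1 * j = j * g.1 := hg
    show (g⁻¹).1 * j = j * (g⁻¹).1
    calc (g⁻¹).1 * j = (g⁻¹).1 * (j * g.1) * (g⁻¹).1 := by rw [mul_assoc, mul_assoc, h2, mul_one]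
      _ = j * (g⁻¹).1 := by rw [← hg, ← mul_assoc, h1, one_mul]

theorem sl_cov [Fintype F] {n d : ℕ} (hn : 2 ≤ n) (hd : 2 ≤ d) (hdn : d ∣ n)
    (H : ∀ e, 2 ≤ e → e + 2 ≤ n → d ∣ e) : Cov (ProjectiveSpecialLinearGroup (Fin n) F) := by
  obtain ⟨μ, hμ, hm, -, hdeg, -⟩ := exists_singer F (d := d) (by omega)
  obtain ⟨j0, hj0⟩ := exists_ty_eq (n := Fin n) (s := Multiset.replicate (n / d) μ)
    (fun u hu => by rw [Multiset.eq_of_mem_replicate hu]; exact Prim.of_irreducible hμ hm)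
    (by simp [hdeg, Nat.div_mul_cancel hdn])
  have hμj : μ ∈ ty j0 := by
    rw [hj0, Multiset.mem_replicate]
    exact ⟨(Nat.div_pos (Nat.le_of_dvd (by omega) hdn) (by omega)).ne', rfl⟩
  have hj : aeval j0 μ = 0 := (aeval_eq_zero_iff_ty _ _).2 fun u hu => by
    rw [hj0] at hu; rw [Multiset.eq_of_mem_replicate hu]
  let i0 : Fin n := ⟨0, by omega⟩
  let i1 : Fin n := ⟨1, by omega⟩
  have h01 : i0 ≠ i1 := by simp [i0, i1]
  have tr : ∀ v w : Fin n → F, v ≠ 0 → w ≠ 0 → ∃ g : SpecialLinearGroup (Fin n) F, g.1 *ᵥ v = w := by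
    intro v w hv hw
    obtain ⟨g, hg⟩ := sl_fam (F := F) (l := Fin n) (J := Unit) (by simp; omega)
      (v := fun _ => v) (w := fun _ => w) (linearIndependent_unique_iff.2 hv)
      (linearIndependent_unique_iff.2 hw)
    exact ⟨g, hg ()⟩
  have e0 : (Pi.single i0 1 : Fin n → F) ≠ 0 := by simp
  refine cov_quot _ (Ln (Pi.single i0 1)) (Cm j0) ?_ ?_ ?_ ?_ ?_
  · intro h
    obtain ⟨g, hg⟩ := tr (Pi.single i0 1) (Pi.single i1 1) e0 (by simp)
    obtain ⟨c, -, hc⟩ : g ∈ Ln (Pi.single i0 (1 : F)) := h ▸ Subgroup.mem_top _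
    rw [hg] at hc
    have := congrFun hc i1
    simp [h01.symm] at this
  · intro h
    obtain ⟨c, hc⟩ : j0 ∈ Set.range (Matrix.scalar (Fin n)) := by
      apply mem_range_scalar_of_commute_transvectionStruct
      intro t
      let x : Matrix.SpecialLinearGroup (Fin n) F := ⟨t.toMatrix, t.det⟩
      have : x ∈ Cm j0 := by rw [h]; exact Subgroup.mem_top x
      exact this
    have h1 : aeval j0 (X - C c) = 0 := by
      rw [← hc]; simp [Matrix.algebraMap_eq_diagonal]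
    have h2 := natDegree_le_of_dvd ((aeval_eq_zero_iff_ty _ _).1 h1 μ hμj) (X_sub_C_ne_zero c)
    rw [natDegree_X_sub_C] at h2
    omega
  · intro z hz
    obtain ⟨r, hr, e⟩ := Matrix.SpecialLinearGroup.mem_center_iff.1 hz
    refine ⟨r, ?_, ?_⟩
    · rintro rfl
      rw [zero_pow (by simp; omega)] at hr
      exact zero_ne_one hr
    · rw [← e]; ext i; simp [Matrix.mulVec_diagonal]
  · intro z hz
    obtain ⟨r, -, e⟩ := Matrix.SpecialLinearGroup.mem_center_iff.1 hz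
    show Commute z.1 j0
    rw [← e]; exact scalar_commute r (fun _ => Commute.all _ _) j0
  intro g
  by_cases hr : ∃ a, g.1.charpoly.IsRoot a
  · obtain ⟨a, ha⟩ := hr
    rw [IsRoot, Matrix.eval_charpoly, ← Matrix.exists_mulVec_eq_zero_iff] at ha
    obtain ⟨v, hv, ha⟩ := ha
    have hgv : g.1 *ᵥ v = a • v := by
      rw [sub_mulVec, sub_eq_zero] at ha
      rw [← ha]; ext i; simp [Matrix.mulVec_diagonal]
    obtain ⟨x, hx⟩ := tr v (Pi.single i0 1) hv e0
    have hx' : (x⁻¹).1 *ᵥ Pi.single i0 1 = v := by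
      rw [← hx, mulVec_mulVec, ← cm, inv_mul_cancel, c1, one_mulVec]
    refine ⟨x, Or.inl ⟨a, ?_, ?_⟩⟩
    · rintro rfl
      apply hv
      have : (g⁻¹).1 *ᵥ (g.1 *ᵥ v) = v := by
        rw [mulVec_mulVec, ← cm, inv_mul_cancel, c1, one_mulVec]
      rw [← this, hgv]; simp
    · rw [cm, cm, ← mulVec_mulVec, ← mulVec_mulVec,
        hx', hgv, mulVec_smul, hx]
  · have nr : ∀ f : F[X], f ∣ g.1.charpoly → f.natDegree ≠ 1 := by
      intro f hf h1
      obtain ⟨a, ha⟩ := exists_root_of_degree_eq_one (p := f)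
        ((degree_eq_iff_natDegree_eq_of_pos one_pos).2 h1)
      exact hr ⟨a, ha.dvd hf⟩
    obtain ⟨j, hj1, hj2⟩ := exists_comm_root hμ g.1 (by
      intro f hf ⟨r, hfr⟩
      have h0 : g.1.charpoly ≠ 0 := g.1.charpoly_monic.ne_zero
      have h1 := congrArg natDegree hfr
      rw [charpoly_natDegree_eq_dim, Fintype.card_fin, natDegree_mul hf.ne_zero
        (by rintro rfl; simp at hfr; exact h0 hfr)] at h1
      have h2 := nr f ⟨r, hfr⟩
      have h3 := nr r ⟨f, by rw [hfr, mul_comm]⟩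
      have h4 := hf.natDegree_pos
      rw [hdeg]
      by_cases h5 : r.natDegree = 0
      · rw [show f.natDegree = n by omega]; exact hdn
      · exact H _ (by omega) (by omega))
    have ht : ty j = ty j0 := by rw [ty_root hμ hm hj2, ty_root hμ hm hj]
    obtain ⟨P, hP⟩ := (ty_eq_iff _ _).1 ht
    obtain ⟨Q, hQ, hQ2⟩ := exists_det_one_conj (A := j)
      (fun c _ => exists_commute_det_of_irreducible (ht ▸ hμj) hμ c) P
    rw [hP] at hQ2
    let x : SpecialLinearGroup (Fin n) F := ⟨Q.1, hQ⟩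
    have hx : (x⁻¹).1 = (Q⁻¹ : GL (Fin n) F).1 := by
      have h2 : x.1 * (x⁻¹).1 = 1 := by rw [← cm, mul_inv_cancel]; rfl
      exact (Units.inv_eq_of_mul_eq_one_right h2).symm
    refine ⟨x, Or.inr ?_⟩
    show Commute (x * g * x⁻¹).1 j0
    rw [cm, cm, hx, ← hQ2]
    show Q.1 * g.1 * _ * _ = _ * (Q.1 * g.1 * _)
    have hg : g.1 * j = j * g.1 := hj1
    simp only [mul_assoc, Units.inv_mul_cancel_left]
    rw [← mul_assoc g.1 j, hg, mul_assoc]

end Cfsg.Agent.H29.Cv
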