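import Mathlib
import Cfsg.Agent.H29.Cv2
import Cfsg.Agent.H29.Cv3
import Cfsg.Agent.H27.Cv3

/-! Assembly of the two-class coverings. -/

set_option autoImplicit false

namespace Cfsg.Agent.H29.Cv

theorem two_of_even {F : Type} [Field F] [Fintype F] (h : ¬ Odd (Fintype.card F)) : (2 : F) = 0 :=
  H10.two_eq_zero_iff_even_card.2 (Nat.even_iff.1 (Nat.not_odd_iff_even.1 h))

theorem all {F : Type} [Field F] [Fintype F]
    (hA : ∀ a : ℕ, 1 ≤ a → Fintype.card F = 3 ^ a → Cov (Cfsg.PSp 3 F)) :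
    (4 ≤ Fintype.card F → Cov (Matrix.ProjectiveSpecialLinearGroup (Fin 2) F)) ∧
    Cov (Matrix.ProjectiveSpecialLinearGroup (Fin 3) F) ∧
    Cov (Matrix.ProjectiveSpecialLinearGroup (Fin 4) F) ∧
    (∀ q : ℕ, Fintype.card F = q ^ 2 → Cov (Cfsg.PSU 4 F q)) ∧
    (∀ q a : ℕ, Fintype.card F = q ^ 2 → 1 ≤ a → q = 3 ^ a → Cov (Cfsg.PSU 3 F q)) ∧
    (∀ m : ℕ, 2 ≤ m → ¬ Odd (Fintype.card F) → ¬ (m = 2 ∧ Fintype.card F = 2) → Cov (Cfsg.PSp m F)) ∧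
    (∀ a : ℕ, 1 ≤ a → Fintype.card F = 3 ^ a → Cov (Cfsg.PSp 3 F)) ∧
    (∀ a : ℕ, 2 ≤ a → Fintype.card F = 2 ^ a → Cov (Cfsg.Lie.G2 F)) := by
  refine ⟨fun _ => sl_cov (d := 2) le_rfl le_rfl dvd_rfl (by omega),
    sl_cov (d := 3) (by omega) (by omega) dvd_rfl (by omega),
    sl_cov (d := 2) (by omega) le_rfl (by omega) (by omega), H27.Cv.psu4, H27.Cv.psu3,
    fun m hm h _ => sp_even (two_of_even h) hm, hA, fun a ha h => g2 (two_of_even ?_)⟩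
  rw [h, Nat.not_odd_iff_even]
  exact (Nat.even_pow' (by omega)).2 even_two

end Cfsg.Agent.H29.Cv
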