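import Mathlib
import Cfsg.Prelude.Def_ClassificationK
import Cfsg.Agent.H29.CI
import Cfsg.Agent.H29.Pair

/-! `2`-groups of symplectic type and exponent four. -/

set_option autoImplicit false

namespace Cfsg.Agent.H29

open Cfsg Cfsg.Agent.H22 Subgroup
open scoped commutatorElement

theorem symp_inv {Q : Type*} [Group Q] [Finite Q] (hQ : IsOfSymplecticType Q) {z : Q} (hz : z ∈ center Q)
    (h1 : z ≠ 1) (h2 : z * z = 1) {W : Subgroup Q} [hW : W.Characteristic] {v : Q} (hv : v ∈ W ⊓ C[W])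
    (e : v * v = 1) : v = 1 ∨ v = z := by
  have h3 : center Q ≤ C[W ⊓ C[W]] := center_le_centralizer _
  have hcyc := hQ.2 ((W ⊓ C[W]) ⊔ center Q) (characteristic_iff_map_eq.2 fun φ => by
    rw [Subgroup.map_sup, map_inf_C_inj φ.injective, characteristic_iff_map_eq.1 hW,
      characteristic_iff_map_eq.1 inferInstance]) (isMulComm_iff.2 (by
    rw [C_sup]
    exact le_inf (sup_le (center_le_C W) h3) (sup_le (le_centralizer_iff.1 h3) (center_le_centralizer _))))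
  exact or_iff_not_imp_left.2 fun h => cyc_inv_eq hcyc (mem_sup_left hv) (mem_sup_right hz) h h1 e h2

theorem symp_sq {Q : Type*} [Group Q] [Finite Q] (hQ : IsOfSymplecticType Q) {z : Q} (hz : z ∈ center Q)
    (h1 : z ≠ 1) (h2 : z * z = 1) (h4 : ∀ x : Q, x ^ 4 = 1) (x : Q) : x * x = 1 ∨ x * x = z := by
  have hc : ∀ g, g * z = z * g := mem_center_iff.1 hz
  have hW := H3.frattini_eq_of_two hQ.1
  have hA : ∀ v : Q, (∀ g, ⁅v, g⁆ ∈ zpowers z) → v ∈ C[frattini Q] := fun v hv => by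
    rw [← zpowers_le, ← le_centralizer_iff, hW, closure_le, C_zpowers]
    rintro _ ⟨g, rfl⟩
    refine mem_C1.2 (commutatorElement_eq_one_iff_mul_comm.1 ?_).symm
    rw [pow_two, commutatorElement_mul_right_eq_mul_conj]
    rcases (mem_zp2 h2).1 (hv g) with e | e <;> rw [e]
    · simp
    · rw [mul_assoc z g, hc g, ← mul_assoc, h2]; simp
  haveI : (zpowers z).Normal := H3.normal_of_le_center (zpowers_le.2 hz)
  rw [← mem_zp2 h2]
  refine (?_ : frattini Q ≤ zpowers z) (pow_two x ▸ H3.pow_mem_frattini hQ.1 x)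
  by_contra hn
  obtain ⟨a, ha, haz, ha2, hca⟩ := H3.exists_central_mod hQ.1 _ _ hn
  have haC := hA a hca
  rw [mem_zp2 h2, pow_two] at ha2
  have ha2 := ha2.resolve_left fun e => haz ((mem_zp2 h2).2 (symp_inv hQ hz h1 h2 ⟨ha, haC⟩ e))
  have hza : zpowers z ≤ zpowers a := zpowers_le.2 (ha2 ▸ mul_mem (mem_zpowers a) (mem_zpowers a))
  have hB : ∀ c ∈ zpowers a, c * c = 1 → c ∈ zpowers z := fun c hc e => (mem_zp2 h2).2
    (symp_inv hQ hz h1 h2 (zpowers_le.2 (mem_inf.2 ⟨ha, haC⟩) hc) e)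
  have hsq : ∀ g : Q, g ^ 2 * g ^ 2 = 1 := fun g => by rw [← pow_add]; exact h4 g
  haveI : (zpowers a).Normal := by
    have := H3.normal_sup_zpowers (zpowers z) hca
    rwa [sup_eq_right.2 hza] at this
  have hn' : ¬ frattini Q ≤ zpowers a := fun h => hn (by
    rw [hW, closure_le] at h ⊢
    rintro _ ⟨g, rfl⟩
    exact hB _ (h ⟨g, rfl⟩) (hsq g))
  obtain ⟨y, hy, hya, hy2, hcy⟩ := H3.exists_central_mod hQ.1 _ _ hn'
  obtain ⟨v, hv, hva, hv2, hcv⟩ : ∃ v ∈ frattini Q, v ∉ zpowers a ∧ v * v = 1 ∧ ∀ g, ⁅v, g⁆ ∈ zpowers a := by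
    rcases (mem_zp2 h2).1 (hB _ hy2 (hsq y)) with e | e
    · exact ⟨y, hy, hya, pow_two y ▸ e, hcy⟩
    · refine ⟨y * a, mul_mem hy ha, fun h => hya ((mul_mem_cancel_right (mem_zpowers a)).1 h), ?_, fun g => ?_⟩
      · rw [mul_assoc, ← mul_assoc a, ← mem_C.1 haC y hy, mul_assoc y, ha2, ← mul_assoc, ← pow_two, e, h2]
      · rw [commutatorElement_mul_left_eq_conj_mul]
        exact mul_mem (Normal.conj_mem inferInstance _ (hza (hca g)) y) (hcy g)
  refine (symp_inv hQ hz h1 h2 ⟨hv, hA v fun g => hB _ (hcv g) ?_⟩ hv2).elim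
    (fun e => hva (e ▸ one_mem _)) fun e => hva (e ▸ hza (mem_zpowers z))
  have e1 : v * ⁅v, g⁆ = ⁅v, g⁆ * v := mem_C.1 (zpowers_le.2 haC (hcv g)) v hv
  have e2 : v⁻¹ = v := inv_eq_of_mul_eq_one_right hv2
  calc ⁅v, g⁆ * ⁅v, g⁆ = (⁅v, g⁆ * v) * (g * v⁻¹ * g⁻¹) := by simp only [commutatorElement_def]; group
    _ = (v * v) * (g * (v * v)⁻¹ * g⁻¹) := by rw [← e1]; simp only [commutatorElement_def]; group
    _ = 1 := by rw [hv2]; simp

theorem lx_of_sp {G : Type*} [Group G] [Finite G] {z : G} (h : SP (pCoreOf 2 (centralizer {z})) z)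
    (hC : C[pCoreOf 2 (centralizer ({z} : Set G))] ≤ pCoreOf 2 (centralizer {z})) :
    LX (pCoreOf 2 (centralizer {z})) z where
  toSP := h
  nrm := le_N_pCoreOf _
  triv := fun x hx h1 => by
    have hN : centralizer {z} ≤ N[zpowers z] := le_N_zpowers le_rfl
    refine le_pCoreOf (Q := centralizer {z} ⊓ cmod (pCoreOf 2 (centralizer {z})) (zpowers z)) inf_le_left
      (le_N_inf le_normalizer (le_N_cmod (le_N_pCoreOf _) hN)) (pgrp_of_forall_coprime fun y hy hc => ?_)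
      ⟨hx, mem_cmod.2 ⟨hN hx, fun q hq => by rw [← commutatorElement_inv]; exact inv_mem (h1 q hq)⟩⟩
    exact eq_one_of_pgrp_of_coprime h.pgrp (hC (mem_C_of_chain h.pgrp (le_N_pCoreOf _ hy.1) hc (U := zpowers z)
      (comm_zpowers_le (hN hy.1) (mem_cmod.1 hy.2).2) (C_zpowers z ▸ hy.1))) hc

end Cfsg.Agent.H29
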