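import Mathlib
import Cfsg.Agent.H22.Sub

/-! Families of `p`-subgroups with trivial intersections. -/

set_option autoImplicit false

namespace Cfsg.Agent.H29

open Cfsg Cfsg.Agent.H22 Subgroup
open scoped commutatorElement

theorem aut_fix_of_sq {A : Type*} [CommGroup A] [Finite A] (hA : IsPGroup 2 A) (t : MulAut A)
    (ht : ∃ k : ℕ, t ^ 2 ^ k = 1) (hC : ∀ a : A, t (t a) = a → t a = a) (a : A) : t a = a := by
  classical
  obtain ⟨k, hk⟩ := ht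
  let δ : A →* A := (t : A →* A) / MonoidHom.id A
  have hδ : ∀ a, δ a = t a / a := fun a => rfl
  by_contra hne
  have hB : δ.range ≠ ⊥ := fun h => hne (div_eq_one.1 (by
    have : δ a ∈ δ.range := ⟨a, rfl⟩
    rwa [h, mem_bot] at this))
  have hiff : ∀ x : A, t x ∈ δ.range ↔ x ∈ δ.range := fun x => by
    constructor
    · rintro ⟨b, hb⟩
      refine ⟨t⁻¹ b, t.injective ?_⟩
      rw [← hb, hδ, hδ, map_div]; simp
    · rintro ⟨b, rfl⟩
      exact ⟨t b, by rw [hδ, hδ, map_div]⟩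
  let σ : Equiv.Perm δ.range := Equiv.Perm.subtypePerm (MulAut.toPerm A t) hiff
  have hσ : σ ^ 2 ^ k = 1 := by
    have : ∀ n (x : δ.range), ((σ ^ n) x : A) = (t ^ n) x := fun n => by
      induction n with
      | zero => intro x; rfl
      | succ n ih => intro x; rw [pow_succ, pow_succ, Equiv.Perm.mul_apply, ih]; rfl
    ext x
    rw [this, hk]; rfl
  haveI := Fintype.ofFinite δ.range
  obtain ⟨⟨b, c, rfl⟩, hb, hb1⟩ := Equiv.Perm.exists_fixed_point_of_prime' (p := 2) (n := k) (σ := σ) (a := 1)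
    (by rw [← Nat.card_eq_fintype_card]; exact pgrp_dvd_card (hA.to_subgroup _) hB) hσ (Subtype.ext (map_one t))
  have hb' : t (δ c) = δ c := congrArg Subtype.val hb
  obtain ⟨j, hj⟩ := IsPGroup.iff_orderOf.1 hA (δ c)
  rcases j with _ | j
  · exact hb1 (Subtype.ext (orderOf_eq_one_iff.1 (by simpa using hj)))
  have h1 : t (c ^ 2 ^ j) = c ^ 2 ^ j * δ c ^ 2 ^ j := by
    rw [map_pow, ← mul_pow, hδ, mul_div_cancel]
  have h2 : δ c ^ 2 ^ j * δ c ^ 2 ^ j = 1 := by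
    rw [← pow_two, ← pow_mul, ← pow_succ, ← hj, pow_orderOf_eq_one]
  have h3 := hC (c ^ 2 ^ j) (by rw [h1, map_mul, h1, map_pow, hb', mul_assoc, h2, mul_one])
  rw [h1, mul_eq_left, ← orderOf_dvd_iff_pow_eq_one, hj, Nat.pow_dvd_pow_iff_le_right one_lt_two] at h3
  omega

variable {G : Type*} [Group G] [Finite G]

theorem mem_C_of_sq {B : Subgroup G} (hB : IsPGroup 2 B) (hab : B ≤ C[B]) {t : G} (hN : t ∈ N[B])
    (ht : ∃ k : ℕ, t ^ 2 ^ k = 1) (h : ∀ b ∈ B, t ^ 2 * b = b * t ^ 2 → t * b = b * t) : t ∈ C[B] := by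
  haveI := isMulComm_iff.2 hab
  letI : CommGroup B := { (inferInstance : Group B) with mul_comm := fun a b => mul_comm' a b }
  obtain ⟨k, hk⟩ := ht
  have key := aut_fix_of_sq hB (B.normalizerMonoidHom ⟨t, hN⟩) ⟨k, by
    rw [← map_pow, show (⟨t, hN⟩ : N[B]) ^ 2 ^ k = 1 from Subtype.ext hk, map_one]⟩ (fun a ha => by
      have h1 : t * (t * a * t⁻¹) * t⁻¹ = a := congrArg Subtype.val ha
      have h2 := h a a.2 (by nth_rewrite 2 [← h1]; simp [pow_two, mul_assoc])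
      exact Subtype.ext (show t * a * t⁻¹ = a by rw [h2, mul_inv_cancel_right]))
  refine mem_C.2 fun b hb => ?_
  have h1 : t * b * t⁻¹ = b := congrArg Subtype.val (key ⟨b, hb⟩)
  nth_rewrite 1 [← h1]; simp

theorem mem_N_of_ti {R : Subgroup G} {x r : G} (h : cj x R = R ∨ cj x R ⊓ R = ⊥) (hr : r ∈ R) (h1 : r ≠ 1)
    (hc : x * r = r * x) : x ∈ N[R] := by
  refine mem_N_iff_cj.2 (h.resolve_right fun h' => h1 ?_)
  rw [← mem_bot, ← h']
  exact ⟨mem_cj.2 (by rwa [mul_assoc, ← hc, inv_mul_cancel_left]), hr⟩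

variable {p : ℕ} [Fact p.Prime]

theorem ti_norm_commute {A B : Subgroup G} (hA : IsPGroup p A) (hB : IsPGroup p B)
    (hti : ∀ a ∈ A, cj a B = B ∨ cj a B ⊓ B = ⊥) (hle : Nat.card A ≤ Nat.card B) (hAB : A ⊓ B = ⊥)
    (hN : B ≤ N[A]) : ⁅A, B⁆ = ⊥ := by
  have h0 : ∀ D ≤ A, D ≤ N[B] → ⁅D, B⁆ = ⊥ := fun D h1 h2 => by
    rw [← le_bot_iff, ← hAB]
    exact le_inf ((commutator_mono h1 le_rfl).trans (comm_le_of_le_N hN)) (comm_le_of_le_N' h2)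
  by_cases hAN : A ≤ N[B]
  · exact h0 A le_rfl hAN
  exfalso
  have hS := pgrp_sup hB hA hN
  have hlt : (B ⊔ A) ⊓ N[B] < B ⊔ A := inf_lt_left.2 fun h => hAN (le_sup_right.trans h)
  obtain ⟨x, ⟨hx1, hx2⟩, hx3⟩ := SetLike.exists_of_lt (pgrp_lt_inf_N hS hlt)
  obtain ⟨a, ha, b, hb, rfl⟩ := (mem_sup_of_le_N' hN).1 (sup_comm B A ▸ hx1)
  have hBM : B ≤ (B ⊔ A) ⊓ N[B] := le_inf le_sup_left le_normalizer
  have haN : a ∈ N[(B ⊔ A) ⊓ N[B]] := by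
    have hx2' : a * b ∈ N[(B ⊔ A) ⊓ N[B]] := hx2
    simpa using mul_mem hx2' (inv_mem (le_normalizer (hBM hb)))
  have haB : a ∉ N[B] := fun h => hx3 ⟨hx1, mul_mem h (le_normalizer hb)⟩
  have h1 : cj a B ⊓ B = ⊥ := (hti a ha).resolve_left fun h => haB (mem_N_iff_cj.2 h)
  have h2 : cj a B ≤ (B ⊔ A) ⊓ N[B] := cj_le_of_mem_N haN hBM
  have h3 : (B ⊔ A) ⊓ N[B] = B ⊔ (A ⊓ N[B]) := dedekind_N hN le_normalizer
  have h4 := card_sup_mul_of_le_N' (H := B) (K := A ⊓ N[B]) inf_le_right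
  have h5 := card_sup_mul_of_le_N (H := cj a B) (K := B) (h2.trans inf_le_right)
  have h6 : Nat.card ↥(cj a B ⊔ B) ≤ Nat.card ↥(B ⊔ (A ⊓ N[B])) := card_le_of_le (h3 ▸ sup_le h2 hBM)
  have h7 : Nat.card ↥(A ⊓ N[B]) < Nat.card A := card_lt_of_lt (inf_lt_left.2 hAN)
  have h8 : B ⊓ (A ⊓ N[B]) = ⊥ := by rw [← inf_assoc, inf_comm B, hAB, bot_inf_eq]
  rw [h8, card_bot, mul_one] at h4
  rw [h1, card_bot, mul_one, card_cj] at h5
  have h9 := card_pos' B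
  rw [h4, h5] at h6
  nlinarith

theorem ti_family_commute {S : Subgroup G} (hS : IsPGroup 2 S) {Δ : Set (Subgroup G)}
    (hinv : ∀ s ∈ S, ∀ R ∈ Δ, cj s R ∈ Δ) (hsq : ∀ R ∈ Δ, ∃ r ∈ R, r ^ 2 ≠ 1)
    (hord : ∀ R ∈ Δ, ∀ T ∈ Δ, Nat.card R = Nat.card T) (hti : ∀ R ∈ Δ, ∀ T ∈ Δ, R = T ∨ R ⊓ T = ⊥)
    {R T : Subgroup G} (hR : R ∈ Δ) (hT : T ∈ Δ) (hRS : R ≤ S) (hTS : T ≤ S) (hne : R ≠ T) :
    ⁅R, T⁆ = ⊥ := by
  induction S using subgroup_lt_induction generalizing R T with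
  | h S ih =>
  -- distinct conjugates commute
  have conj : ∀ R ∈ Δ, R < S → ∀ s ∈ S, s ∉ N[R] → ∀ r ∈ R, ∀ r' ∈ R, r' * (s * r * s⁻¹) = s * r * s⁻¹ * r' := by
    intro R hR hlt s hs hsN r hr r' hr'
    obtain ⟨M, h1, h2, h3⟩ := (H2.subnormalIn_of_isPGroup hS hlt.le).exists_lt_normal hlt.ne
    have := ih M h2 (hS.to_le h2.le) (fun s hs => hinv s (h2.le hs)) (hinv s hs R hR) hR
      (cj_le_of_mem_N (h3 hs) h1) h1 fun h => hsN (mem_N_iff_cj.2 h)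
    exact mem_C.1 (le_C_iff_comm.2 this (conj_mem_cj hr)) r' hr'
  have ti : ∀ R ∈ Δ, ∀ s ∈ S, cj s R = R ∨ cj s R ⊓ R = ⊥ := fun R hR s hs => hti _ (hinv s hs R hR) R hR
  have lt : ∀ R ∈ Δ, ∀ T ∈ Δ, R ≤ S → T ≤ S → R ≠ T → R < S := fun R hR T hT h1 h2 h3 =>
    lt_of_le_of_ne h1 fun h => h3 (eq_of_le_of_card_ge (h ▸ h2) (hord R hR T hT).le).symm
  have step : ∀ R ∈ Δ, ∀ T ∈ Δ, R ≤ S → T ≤ S → R ≠ T → ¬ R ≤ N[T] → ¬ T ≤ N[R] →
      ∀ r ∈ R, r ≠ 1 → r ∉ N[T] := by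
    intro R hR T hT hRS hTS hne h1 h2 r hr hr1 hrN
    obtain ⟨t, ht, htN⟩ := SetLike.not_le_iff_exists.1 h2
    have key : ∀ r ∈ R, r ≠ 1 → r ∈ N[T] → ∀ x ∈ R, x * r = r * x → x ∈ N[T] := by
      intro r hr hr1 hrN x hx hxr
      refine mem_N_of_ti (ti T hT x (hRS hx)) (r := r⁻¹ * t * r * t⁻¹)
        (mul_mem (conj_mem_of_N' hrN ht) (inv_mem ht)) (fun h => htN (mem_N_of_ti (ti R hR t (hTS ht)) hr hr1 ?_)) ?_
      · rw [mul_inv_eq_one, mul_assoc, inv_mul_eq_iff_eq_mul] at h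
        exact h
      · have h3 := conj R hR (lt R hR T hT hRS hTS hne) t (hTS ht) htN r hr x hx
        have h4 : x * r⁻¹ = r⁻¹ * x := by rw [mul_inv_eq_iff_eq_mul, mul_assoc, hxr, inv_mul_cancel_left]
        calc x * (r⁻¹ * t * r * t⁻¹) = x * r⁻¹ * (t * r * t⁻¹) := by group
          _ = r⁻¹ * (x * (t * r * t⁻¹)) := by rw [h4, mul_assoc]
          _ = _ := by rw [h3]; group
    obtain ⟨z, hz, hz1⟩ := (bot_or_exists_ne_one _).resolve_left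
      (pgrp_center_ne_bot (hS.to_le hRS) fun h => hr1 (by simpa [h] using hr))
    exact h1 fun x hx => key z hz.1 hz1 (key r hr hr1 hrN z hz.1 (mem_C.1 hz.2 r hr).symm) x hx
      (mem_C.1 hz.2 x hx)
  have hRT : R ⊓ T = ⊥ := (hti R hR T hT).resolve_left hne
  by_cases h1 : T ≤ N[R]
  · exact ti_norm_commute (hS.to_le hRS) (hS.to_le hTS) (fun a ha => ti T hT a (hRS ha)) (hord R hR T hT).le hRT h1
  by_cases h2 : R ≤ N[T]
  · rw [commutator_comm]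
    exact ti_norm_commute (hS.to_le hTS) (hS.to_le hRS) (fun a ha => ti R hR a (hTS ha)) (hord T hT R hR).le
      (inf_comm R T ▸ hRT) h2
  exfalso
  obtain ⟨r, hr, hr2⟩ := hsq R hR
  obtain ⟨t, ht, ho⟩ := pgrp_exists_orderOf_eq (hS.to_le hTS) fun h => h1 (h ▸ bot_le)
  have ht1 : t ≠ 1 := by rintro rfl; simp at ho
  have ht2 : t * t = 1 := by rw [← pow_two, ← ho, pow_orderOf_eq_one]
  have hti' : t⁻¹ = t := inv_eq_of_mul_eq_one_right ht2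
  have hrN := step R hR T hT hRS hTS hne h2 h1 r hr (by rintro rfl; simp at hr2)
  have htN := step T hT R hR hTS hRS hne.symm h1 h2 t ht ht1
  have e1 := conj R hR (lt R hR T hT hRS hTS hne) t (hTS ht) htN r hr r hr
  have e2 := conj T hT (lt T hT R hR hTS hRS hne.symm) r (hRS hr) hrN t ht t ht
  rw [hti'] at e1
  refine htN (mem_N_of_ti (ti R hR t (hTS ht)) (pow_mem hr 2) hr2 ?_)
  -- `e1 : r (t r t) = (t r t) r`, `e2 : t (r t r⁻¹) = (r t r⁻¹) t`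
  have e3 : t * r * t * r⁻¹ = r * t * r⁻¹ * t := by rw [← e2]; group
  have e4 : t * r * t * r⁻¹ = r⁻¹ * (t * r * t) := by
    rw [eq_inv_mul_iff_mul_eq, ← mul_assoc, e1, mul_inv_cancel_right]
  have e5 : r * t * r⁻¹ = r⁻¹ * t * r := by
    apply mul_right_cancel (b := t)
    rw [← e3, e4]; group
  calc t * r ^ 2 = r * (r⁻¹ * t * r) * r := by rw [pow_two]; group
    _ = _ := by rw [← e5, pow_two]; group

end Cfsg.Agent.H29
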